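import Cfsg.Agent.StB.ChevBN
import Cfsg.Agent.GLn.Bruhat
import Cfsg.Agent.Chev.Data
/-!
# The Steinberg character of a Chevalley group
-/
set_option autoImplicit false

namespace Cfsg.Agent.StB
open Cfsg Cfsg.Agent.Chev Cfsg.Agent.CharLib Cfsg.Lie Equiv

attribute [-simp] zsmul_eq_mul

section general
variable {G : Type*} [Group G] [Finite G]

theorem coset_count (P : Subgroup G) (A Y : G → Prop) (c : ℕ) (hA : ∀ x, ∀ p ∈ P, A x → A (x * p))
    (hY : ∀ x, Nat.card {p : P // Y (x * p)} = c) :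
    Nat.card {x // A x ∧ Y x} * Nat.card P = c * Nat.card {x // A x} := by
  have := Fintype.ofFinite {x // A x}
  have e : {x // A x ∧ Y x} × P ≃ Σ x : {x // A x}, {p : P // Y (x * p)} :=
    { toFun := fun y => ⟨⟨y.1 * (y.2 : G)⁻¹, hA _ _ (inv_mem y.2.2) y.1.2.1⟩, y.2, by simpa using y.1.2.2⟩
      invFun := fun x => (⟨x.1 * x.2.1, hA _ _ x.2.1.2 x.1.2, x.2.2⟩, x.2.1)
      left_inv := fun y => by simp
      right_inv := fun x => by
        obtain ⟨⟨x, hx⟩, p, hp⟩ := x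
        simp only [Sigma.mk.injEq, mul_inv_cancel_right, true_and]
        congr 1 <;> simp }
  rw [← Nat.card_prod, Nat.card_congr e, Nat.card_sigma]
  simp [hY, mul_comm]

omit [Finite G] in
theorem card_fixedBy_mul (P : Subgroup G) (g : G) :
    Nat.card (MulAction.fixedBy (G ⧸ P) g) * Nat.card P = Nat.card {x // x⁻¹ * g * x ∈ P} := by
  rw [mul_comm, ← QuotientGroup.card_preimage_mk]
  refine Nat.card_congr (Equiv.subtypeEquivRight fun x => ?_)
  rw [Set.mem_preimage, MulAction.mem_fixedBy, MulAction.Quotient.smul_coe, eq_comm, QuotientGroup.eq,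
    smul_eq_mul, mul_assoc]

open Classical in
/-- indicator of a proposition -/
noncomputable def ind (P : Prop) : ℂ := if P then 1 else 0

theorem ind_pos {P : Prop} (h : P) : ind P = 1 := if_pos h
theorem ind_neg {P : Prop} (h : ¬ P) : ind P = 0 := if_neg h
theorem ind_congr {P Q : Prop} (h : P ↔ Q) : ind P = ind Q := by rw [propext h]

theorem cast_card_subtype {α : Type*} [Fintype α] (A : α → Prop) :
    (Nat.card {a // A a} : ℂ) = ∑ a, ind (A a) := by
  classical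
  rw [card_subtype_eq_sum, Nat.cast_sum]
  refine Finset.sum_congr rfl fun a _ => ?_
  split_ifs with h
  · rw [ind_pos h, Nat.cast_one]
  · rw [ind_neg h, Nat.cast_zero]

omit [Finite G] in
theorem sum_card_conj_mem [Fintype G] (K : Subgroup G) :
    ∑ g : G, (Nat.card {x // x⁻¹ * g * x ∈ K} : ℂ) = Nat.card G * Nat.card K := by
  classical
  simp only [cast_card_subtype]
  rw [Finset.sum_comm, Finset.sum_congr rfl (g := fun _ => ∑ a, ind (a ∈ K)) fun x _ => ?_]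
  · simp
  · exact Fintype.sum_equiv (MulAut.conj x⁻¹).toEquiv _ _ fun g => by simp

end general

variable {D : ChevalleyDatum} {C : Cert D} {F : Type*} [Field F] {G : Type*} [Group G]

theorem alt_sum (p : Nd D → Prop) :
    ∑ J ∈ (Finset.range D.rank).powerset,
      (-1 : ℂ) ^ J.card * ind (∀ j ∈ Cert.nodes D J, p j) = ind (∀ j, ¬ p j) := by
  classical
  set A := (Finset.range D.rank).filter fun i => ∃ h : i < D.rank, p ⟨i, h⟩
  have h1 : (Finset.range D.rank).powerset.filter (fun J : Finset ℕ => ∀ j ∈ Cert.nodes D J, p j) =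
      A.powerset := by
    ext J
    simp only [Finset.mem_filter, Finset.mem_powerset, A, Finset.subset_iff, Finset.mem_range,
      Cert.mem_nodes, Finset.mem_coe]
    constructor
    · rintro ⟨h1, h2⟩ i hi
      exact ⟨h1 hi, h1 hi, h2 ⟨i, h1 hi⟩ hi⟩
    · intro h
      exact ⟨fun i hi => (h hi).1, fun j hj => (h hj).2.2⟩
  have h2 := congrArg (Int.cast : ℤ → ℂ) (Finset.sum_powerset_neg_one_pow_card (x := A))
  push_cast at h2
  rw [← h1, Finset.sum_filter] at h2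
  have h3 : A = ∅ ↔ ∀ j, ¬ p j := by
    simp only [A, Finset.filter_eq_empty_iff, Finset.mem_range, not_exists]
    exact ⟨fun h j => h j.2 j.2, fun h i _ hi => h ⟨i, hi⟩⟩
  rw [← ind_congr h3]
  refine Eq.trans (Finset.sum_congr rfl fun J _ => ?_) (h2.trans ?_)
  · split_ifs with h
    · rw [ind_pos h, mul_one]
    · rw [ind_neg h, mul_zero]
  · split_ifs with h
    · rw [ind_pos h]
    · rw [ind_neg h]

variable (S : Sys C F G)

/-- the Bruhat type of an element -/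
noncomputable def ty (g : G) : Perm (Rt D) := (S.exists_cell g).choose

theorem ty_mem (g : G) : ty S g ∈ C.W := (S.exists_cell g).choose_spec.1
theorem ty_cell (g : G) : S.Cell (ty S g) g := (S.exists_cell g).choose_spec.2

variable {S}

theorem ty_eq {g : G} {w : Perm (Rt D)} (h : S.Cell w g) : ty S g = w := (ty_cell S g).unique h

theorem ty_B_mul {b : G} (hb : b ∈ S.B) (g : G) : ty S (b * g) = ty S g :=
  ty_eq ((ty_cell S g).B_mul hb)

theorem cell_mul_over {J : Set (Nd D)} {d w : Perm (Rt D)} {x : G} (hx : S.Cell d x)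
    (hd : ∀ j ∈ J, C.Pos (d (C.sp j))) (hw : w ∈ C.WJ J) :
    ∀ m, S.Over m w → S.Cell (d * w) (x * m) := by
  refine Cert.lnJ_induction_right (P := fun w => ∀ m, S.Over m w → S.Cell (d * w) (x * m)) ?_ ?_ hw
  · intro m hm
    rw [mul_one]; exact hx.mul_B (S.H_le_B hm.mem_H)
  · intro w hw j hj hp ih m hm
    have h1 := hm.mul (S.over_ns j 1).inv
    rw [C.ss_inv, mul_assoc, C.ss_mul_self, mul_one] at h1
    have h2 := (ih _ h1).mul_ns_of_pos (S.over_ns j 1)
      (Cert.pos_of_min (C.W_le_Aut hx.mem_W) hd hp ((Cert.inJ_map hw _).2 (C.inJ_sp.2 hj)))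
    simpa [mul_assoc] using h2

theorem cell_mul_of_min {J : Set (Nd D)} {d w : Perm (Rt D)} {x y : G} (hx : S.Cell d x)
    (hd : ∀ j ∈ J, C.Pos (d (C.sp j))) (hw : w ∈ C.WJ J) (hy : S.Cell w y) :
    S.Cell (d * w) (x * y) := by
  obtain ⟨u, hu, m, hm, u', hu', rfl⟩ := hy
  have := (cell_mul_over (hx.mul_B (S.Up_le_B hu)) hd hw m hm).mul_B (S.Up_le_B hu')
  simpa [mul_assoc] using this

theorem cell_mul_P {J : Set (Nd D)} {w : Perm (Rt D)} {g p : G} (hg : S.Cell w g) (hp : p ∈ S.P J) :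
    ∃ a ∈ C.WJ J, S.Cell (w * a) (g * p) := by
  obtain ⟨v, hv, u, hu, m, hm, u', hu', rfl⟩ := Sys.mem_P_iff.1 hp
  have key : ∀ m, S.Over m v → ∃ a ∈ C.WJ J, S.Cell (w * a) (g * u * m) := by
    refine C.WJ_induction_right (P := fun v => ∀ m, S.Over m v →
      ∃ a ∈ C.WJ J, S.Cell (w * a) (g * u * m)) ?_ ?_ hv
    · intro m hm
      exact ⟨1, one_mem _, by
        rw [mul_one]; exact (hg.mul_B (S.Up_le_B hu)).mul_B (S.H_le_B hm.mem_H)⟩
    · intro v _ j hj ih m hm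
      have h1 := hm.mul (S.over_ns j 1).inv
      rw [C.ss_inv, mul_assoc, C.ss_mul_self, mul_one] at h1
      obtain ⟨a, ha, h2⟩ := ih _ h1
      rcases h2.mul_ns (S.over_ns j 1) with h | h
      · exact ⟨_, mul_mem ha (C.ss_mem_WJ hj), by simpa [mul_assoc] using h⟩
      · exact ⟨_, ha, by simpa [mul_assoc] using h⟩
  obtain ⟨a, ha, h⟩ := key m hm
  exact ⟨a, ha, by simpa [mul_assoc] using h.mul_B (S.Up_le_B hu')⟩

theorem exists_min (J : Set (Nd D)) (x : G) :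
    ∃ p ∈ S.P J, ∀ j ∈ J, C.Pos (ty S (x * p) (C.sp j)) := by
  obtain ⟨v, hv, h⟩ := Cert.exists_min_coset J (C.W_le_Aut (ty_mem S x))
  obtain ⟨u, hu, m, hm, u', hu', e⟩ := ty_cell S x
  obtain ⟨m', hm'⟩ := S.exists_over (C.WJ_le_W J hv)
  refine ⟨_, mul_mem (inv_mem (S.Up_le_P J hu')) (hm'.mem_P hv), ?_⟩
  rwa [ty_eq (w := ty S x * v)]
  have := (hm.mul hm').cell.B_mul (S.Up_le_B hu)
  convert this using 1
  conv_lhs => rw [e]
  group

theorem ty_mul_of_min {J : Set (Nd D)} {x p : G} (hx : ∀ j ∈ J, C.Pos (ty S x (C.sp j)))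
    (hp : p ∈ S.P J) : ty S p ∈ C.WJ J ∧ ty S (x * p) = ty S x * ty S p :=
  have h := (ty_cell S p).mem_P_iff.1 hp
  ⟨h, ty_eq (cell_mul_of_min (ty_cell S x) hx h (ty_cell S p))⟩

theorem min_mul_iff {J : Set (Nd D)} {x p : G} (hx : ∀ j ∈ J, C.Pos (ty S x (C.sp j)))
    (hp : p ∈ S.P J) : (∀ j ∈ J, C.Pos (ty S (x * p) (C.sp j))) ↔ p ∈ S.B := by
  obtain ⟨h1, h2⟩ := ty_mul_of_min hx hp
  rw [h2]
  constructor
  · intro h
    exact Sys.cell_one_iff.1
      (Cert.min_coset_unique (C.W_le_Aut (ty_mem S x)) hx h1 h ▸ ty_cell S p)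
  · intro h
    rwa [ty_eq (Sys.cell_one_iff.2 h), mul_one]

theorem max_mul_iff {J : Set (Nd D)} {x p : G} (hx : ∀ j ∈ J, C.Pos (ty S x (C.sp j)))
    (hp : p ∈ S.P J) : (∀ j ∈ J, ¬ C.Pos (ty S (x * p) (C.sp j))) ↔ S.Cell (C.w0 J) p := by
  obtain ⟨h1, h2⟩ := ty_mul_of_min hx hp
  have h3 : ∀ j ∈ J, C.Pos (ty S (x * p) (C.sp j)) ↔ C.Pos (ty S p (C.sp j)) := fun j hj => by
    rw [h2, Perm.mul_apply, Cert.pos_iff_of_min (C.W_le_Aut (ty_mem S x)) hx
      ((Cert.inJ_map h1 _).2 (C.inJ_sp.2 hj))]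
  constructor
  · intro h
    exact Cert.eq_w0 h1 (fun j hj => (h3 j hj).not.1 (h j hj)) ▸ ty_cell S p
  · intro h j hj
    rw [h3 j hj, ty_eq h]; exact C.w0_sp hj

theorem card_shift {J : Set (Nd D)} (Y Z : G → Prop) (hZ : ∀ p, Z p → p ∈ S.P J)
    (h : ∀ x p, (∀ j ∈ J, C.Pos (ty S x (C.sp j))) → p ∈ S.P J → (Y (x * p) ↔ Z p)) (x : G) :
    Nat.card {p : S.P J // Y (x * p)} = Nat.card {p // Z p} := by
  obtain ⟨p₀, h0, h1⟩ := exists_min (S := S) J x
  have h2 : ∀ p : S.P J, Y (x * p) ↔ Z (p₀⁻¹ * p) := fun p => by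
    rw [← h _ _ h1 (mul_mem (inv_mem h0) p.2), mul_assoc, mul_inv_cancel_left]
  exact Nat.card_congr
    { toFun := fun p => ⟨p₀⁻¹ * p.1, (h2 _).1 p.2⟩
      invFun := fun p => ⟨⟨p₀ * p.1, mul_mem h0 (hZ _ p.2)⟩, (h2 _).2 (by simpa using p.2)⟩
      left_inv := fun p => by simp
      right_inv := fun p => by simp }

theorem card_cell {w : Perm (Rt D)} (A : G → Prop) {m : G} (hm : S.Over m w) :
    Nat.card {g // S.Cell w g ∧ ∃ u ∈ S.Uw w⁻¹, A u ∧ m⁻¹ * u⁻¹ * g ∈ S.B} =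
      Nat.card {u // u ∈ S.Uw w⁻¹ ∧ A u} * Nat.card S.B := by
  rw [← Nat.card_prod]
  symm
  refine Nat.card_congr (Equiv.ofBijective (fun ub => ⟨ub.1.1 * m * ub.2,
    Sys.cell_of (S.Up_le_B (S.Uw_le_Up _ ub.1.2.1)) hm ub.2.2, ub.1, ub.1.2.1, ub.1.2.2,
      by simp [mul_assoc]⟩) ⟨?_, ?_⟩)
  · rintro ⟨u, b⟩ ⟨u', b'⟩ e
    obtain ⟨h1, h2⟩ := Sys.nf_unique' hm b.2 b'.2 u.2.1 u'.2.1 (congrArg Subtype.val e)
    exact Prod.ext (Subtype.ext h1) (Subtype.ext h2)
  · rintro ⟨g, -, u, hu, hA, hb⟩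
    exact ⟨(⟨u, hu, hA⟩, ⟨_, hb⟩), Subtype.ext (by simp [mul_assoc])⟩

theorem card_cell' {w : Perm (Rt D)} (hw : w ∈ C.W) :
    Nat.card {g // S.Cell w g} = Nat.card F ^ C.ln w * Nat.card S.B := by
  obtain ⟨m, hm⟩ := S.exists_over hw
  have h := card_cell (fun _ => True) hm
  simp only [and_true, true_and] at h
  rw [← Cert.Aut.ln_inv (C.W_le_Aut hw), ← S.card_Uw (C.W_le_Aut (inv_mem hw))]
  refine Eq.trans (Nat.card_congr (Equiv.subtypeEquivRight fun g => ?_)) h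
  refine ⟨fun hg => ⟨hg, ?_⟩, fun hg => hg.1⟩
  obtain ⟨u, hu, b, hb, rfl⟩ := hg.exists_nf' hm
  exact ⟨u, hu, by simpa [mul_assoc] using hb⟩

variable (S) in
/-- the Steinberg character -/
noncomputable def St : G → ℂ := fun g => ∑ J ∈ (Finset.range D.rank).powerset,
  (-1 : ℂ) ^ J.card * fixedPointCharacter (S.P (Cert.nodes D J)) g

theorem steinberg_eq (C : Cert D) (F : Type*) [Field F] : D.steinbergCharacter F = St (C.sys F) := by
  funext g
  simp only [ChevalleyDatum.steinbergCharacter, St, C.parabolicIn_eq]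

theorem Uw_w0 : S.Uw (C.w0 Set.univ)⁻¹ = S.Up := by
  rw [Cert.w0_inv, Sys.Uw, Sys.Up]
  congr 1
  ext r
  simp [Cert.pos_w0_univ_iff]

theorem mem_H_of_conj_w0 {m b : G} (hm : S.Over m (C.w0 Set.univ)) (hb : b ∈ S.B)
    (h : m⁻¹ * b * m ∈ S.B) : b ∈ S.H := by
  obtain ⟨u, hu, a, ha, rfl⟩ := S.mem_B.1 hb
  have h1 : m⁻¹ * a * m ∈ S.H := by simpa using S.N_conj_H (inv_mem hm.mem_N) ha
  have h2 := hm.inv.conj_Uw (u := u) (Uw_w0 (S := S) ▸ hu)
  have h3 := S.eq_one_of_mem_Um_B h2 (by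
    convert mul_mem h (S.H_le_B (inv_mem h1)) using 1; group)
  rw [inv_inv, mul_assoc, inv_mul_eq_one, eq_comm, mul_eq_right] at h3
  rwa [h3, one_mul]

variable [Finite G]

theorem fix_mul_B (J : Set (Nd D)) {b : G} (hb : b ∈ S.B) :
    Nat.card (MulAction.fixedBy (G ⧸ S.P J) b) * Nat.card S.B =
      Nat.card {x // x⁻¹ * b * x ∈ S.B ∧ ∀ j ∈ J, C.Pos (ty S x (C.sp j))} := by
  have h1 := coset_count (S.P J) (fun x => x⁻¹ * b * x ∈ S.P J)
    (fun x => ∀ j ∈ J, C.Pos (ty S x (C.sp j))) (Nat.card S.B)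
    (fun x p hp h => by
      convert mul_mem (mul_mem (inv_mem hp) h) hp using 1; group)
    (card_shift (fun x => ∀ j ∈ J, C.Pos (ty S x (C.sp j))) (· ∈ S.B) (fun _ h => S.B_le_P J h) fun x p => min_mul_iff)
  rw [← card_fixedBy_mul, ← mul_assoc] at h1
  rw [mul_comm, ← Nat.eq_of_mul_eq_mul_right Nat.card_pos h1]
  refine Nat.card_congr (Equiv.subtypeEquivRight fun x => and_congr_left fun hx => ?_)
  refine ⟨fun h => (min_mul_iff hx h).1 ?_, fun h => S.B_le_P J h⟩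
  rwa [mul_assoc, mul_inv_cancel_left, ty_B_mul hb]

theorem St_B {b : G} (hb : b ∈ S.B) :
    St S b = Nat.card {u // u ∈ S.Up ∧ u⁻¹ * b * u ∈ S.H} := by
  classical
  have := Fintype.ofFinite G
  obtain ⟨m, hm⟩ := S.exists_over (C.w0_mem_W Set.univ)
  have hB : (Nat.card S.B : ℂ) ≠ 0 := Nat.cast_ne_zero.2 Nat.card_pos.ne'
  apply mul_right_cancel₀ hB
  have h1 := card_cell (fun u => u⁻¹ * b * u ∈ S.H) hm
  rw [Uw_w0] at h1
  rw [← Nat.cast_mul, ← h1, St, Finset.sum_mul]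
  simp only [fixedPointCharacter, mul_assoc, ← Nat.cast_mul, fix_mul_B _ hb]
  simp only [cast_card_subtype, Finset.mul_sum]
  rw [Finset.sum_comm]
  refine Finset.sum_congr rfl fun x _ => ?_
  by_cases hx : x⁻¹ * (b * x) ∈ S.B
  · simp only [hx, true_and]
    refine (alt_sum fun j => C.Pos (ty S x (C.sp j))).trans (ind_congr ?_)
    constructor
    · intro h
      have h2 := Cert.eq_w0 (J := Set.univ) (ty_mem S x) (fun j _ => h j) ▸ ty_cell S x
      refine ⟨h2, ?_⟩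
      obtain ⟨u, hu, c, hc, rfl⟩ := h2.exists_nf' hm
      rw [Uw_w0] at hu
      refine ⟨u, hu, ?_, by simpa [mul_assoc] using hc⟩
      rw [← mul_assoc]
      refine mem_H_of_conj_w0 hm (mul_mem (mul_mem (inv_mem (S.Up_le_B hu)) hb) (S.Up_le_B hu)) ?_
      convert mul_mem (mul_mem hc hx) (inv_mem hc) using 1; group
    · rintro ⟨h, -⟩ j
      rw [ty_eq h]; exact C.w0_sp (Set.mem_univ j)
  · simp only [hx, false_and, ind_neg not_false, mul_zero, Finset.sum_const_zero]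
    rw [ind_neg]
    rintro ⟨-, u, hu, h2, h3⟩
    have h4 : m⁻¹ * (u⁻¹ * (b * u)) * m ∈ S.H := by simpa using S.N_conj_H (inv_mem hm.mem_N) h2
    refine hx ?_
    convert mul_mem (mul_mem (inv_mem h3) (S.H_le_B h4)) h3 using 1; group

theorem St_one : St S 1 = (Nat.card F : ℂ) ^ (D.nroots / 2) := by
  rw [St_B (one_mem _), ← Nat.cast_pow, ← S.card_Up]
  congr 1
  exact Nat.card_congr (Equiv.subtypeEquivRight fun u => by simp [one_mem])

theorem St_B' (b : S.B) : St S b = fixedPointCharacter (S.H.subgroupOf S.B) b := by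
  have hH : (Nat.card (S.H.subgroupOf S.B) : ℂ) ≠ 0 := Nat.cast_ne_zero.2 Nat.card_pos.ne'
  apply mul_right_cancel₀ hH
  rw [St_B b.2, fixedPointCharacter, ← Nat.cast_mul, ← Nat.cast_mul, card_fixedBy_mul, ← Nat.card_prod]
  congr 1
  refine Nat.card_congr (Equiv.ofBijective (fun ua => ⟨⟨ua.1.1, S.Up_le_B ua.1.2.1⟩ * ua.2.1, ?_⟩)
    ⟨?_, ?_⟩)
  · have h1 : (ua.2.1 : G) ∈ S.H := ua.2.2
    rw [Subgroup.mem_subgroupOf]
    convert mul_mem (mul_mem (inv_mem h1) ua.1.2.2) h1 using 1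
    simp [mul_assoc]
  · rintro ⟨u, a⟩ ⟨u', a'⟩ e
    have e : (u : G) * a.1 = u' * a'.1 := congrArg (fun y => (y.1 : G)) e
    have h1 : (u' : G)⁻¹ * u = 1 := S.eq_one_of_mem_Up_H (mul_mem (inv_mem u'.2.1) u.2.1) (by
      rw [show (u' : G)⁻¹ * u = a'.1 * (a.1 : G)⁻¹ by
        rw [eq_mul_inv_iff_mul_eq, mul_assoc, e, inv_mul_cancel_left]]
      exact mul_mem a'.2 (inv_mem a.2))
    have h2 : u = u' := Subtype.ext (inv_mul_eq_one.1 h1).symm
    subst h2
    exact Prod.ext rfl (Subtype.ext (Subtype.ext (mul_left_cancel e)))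
  · rintro ⟨⟨y, hy⟩, h⟩
    obtain ⟨u, hu, a, ha, rfl⟩ := S.mem_B.1 hy
    rw [Subgroup.mem_subgroupOf] at h
    refine ⟨(⟨u, hu, ?_⟩, ⟨⟨a, S.H_le_B ha⟩, ha⟩), rfl⟩
    convert mul_mem (mul_mem ha h) (inv_mem ha) using 1
    simp [mul_assoc]

omit [Finite G] in
theorem card_doubleCoset (J K : Set (Nd D)) :
    Nat.card (DoubleCoset.Quotient (S.P J : Set G) (S.P K)) =
      Nat.card {d // d ∈ C.W ∧ (∀ j ∈ J, C.Pos (d⁻¹ (C.sp j))) ∧ ∀ k ∈ K, C.Pos (d (C.sp k))} := by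
  symm
  refine Nat.card_congr (Equiv.ofBijective
    (fun d => DoubleCoset.mk _ _ (S.exists_over d.2.1).choose) ⟨?_, ?_⟩)
  · rintro ⟨d, hd, h1, h2⟩ ⟨d', hd', h3, h4⟩ e
    obtain ⟨p, hp, p', hp', e⟩ := (DoubleCoset.eq _ _ _ _).1 e
    obtain ⟨a, ha, h5⟩ := cell_mul_P (S.exists_over hd).choose_spec.cell.inv (inv_mem hp)
    have h6 := h5.inv
    rw [mul_inv_rev, mul_inv_rev, inv_inv, inv_inv, inv_inv] at h6
    obtain ⟨b, hb, h7⟩ := cell_mul_P h6 hp'
    have h8 := (S.exists_over hd').choose_spec.cell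
    rw [e] at h8
    have h9 := h8.unique h7
    subst h9
    exact Subtype.ext (Cert.min_dcoset_unique hd h1 h2 (inv_mem ha) hb h3 h4).symm
  · intro q
    induction q using Quotient.inductionOn with | h g =>
    obtain ⟨w, hw, u, hu, m, hm, u', hu', rfl⟩ := S.exists_cell g
    obtain ⟨a, ha, b, hb, h1, h2⟩ := Cert.exists_min_dcoset J K hw
    have hd := mul_mem (mul_mem (C.WJ_le_W J ha) hw) (C.WJ_le_W K hb)
    refine ⟨⟨_, hd, h1, h2⟩, (DoubleCoset.eq _ _ _ _).2 ?_⟩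
    obtain ⟨ma, hma⟩ := S.exists_over (C.WJ_le_W J ha)
    have h3 := ((S.exists_over hd).choose_spec.inv.mul hma).mul hm
    refine ⟨_, mul_mem (S.Up_le_P J hu) (inv_mem (hma.mem_P ha)), _,
      mul_mem (h3.mem_P (by simpa [mul_assoc] using inv_mem hb)) (S.Up_le_P K hu'), by group⟩

theorem isGen_St : IsGeneralizedCharacter G (St S) := by
  have : St S = ∑ J ∈ (Finset.range D.rank).powerset,
      ((-1 : ℤ) ^ J.card) • fixedPointCharacter (S.P (Cert.nodes D J)) := by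
    funext g
    simp [St, zsmul_eq_mul]
  rw [this]
  exact isGen_sum _ fun J _ => isGen_zsmul (isGen_of_isChar (isChar_fixedBy _)) _

omit [Finite G] in
theorem inner_St_fix [Fintype G] (K : Set (Nd D)) :
    classInner (St S) (fixedPointCharacter (S.P K)) = ind (K = ∅) := by
  classical
  have h1 : classInner (St S) (fixedPointCharacter (S.P K)) =
      ∑ J ∈ (Finset.range D.rank).powerset, (-1 : ℂ) ^ J.card *
        Nat.card (DoubleCoset.Quotient (S.P (Cert.nodes D J) : Set G) (S.P K)) := by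
    simp only [← GLn.inner_fixedPointCharacter, classInner, St, Finset.sum_mul, Finset.mul_sum]
    rw [Finset.sum_comm]
    refine Finset.sum_congr rfl fun J _ => Finset.sum_congr rfl fun g _ => ?_
    simp only [fixedPointCharacter, map_natCast]
    ring
  rw [h1]
  simp only [card_doubleCoset, cast_card_subtype, Finset.mul_sum]
  rw [Finset.sum_comm, Finset.sum_eq_single (C.w0 Set.univ)]
  · by_cases hK : K = ∅
    · simp only [hK, C.w0_mem_W, true_and, Set.mem_empty_iff_false, false_imp_iff, implies_true,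
        and_true]
      refine (alt_sum fun j => C.Pos ((C.w0 Set.univ)⁻¹ (C.sp j))).trans (ind_congr ?_)
      rw [Cert.w0_inv]; exact iff_true_intro fun j => C.w0_sp (Set.mem_univ j)
    · obtain ⟨k, hk⟩ := Set.nonempty_iff_ne_empty.2 hK
      rw [ind_neg hK]
      refine Finset.sum_eq_zero fun J _ => ?_
      rw [ind_neg fun h => C.w0_sp (Set.mem_univ k) (h.2.2 k hk), mul_zero]
  · intro d _ hd
    by_cases h : d ∈ C.W ∧ ∀ k ∈ K, C.Pos (d (C.sp k))
    · simp only [h.1, eq_true h.2, true_and, and_true]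
      refine (alt_sum fun j => C.Pos (d⁻¹ (C.sp j))).trans (ind_neg fun h2 => hd ?_)
      rw [← Cert.w0_inv, ← Cert.eq_w0 (J := Set.univ) (inv_mem h.1) fun j _ => h2 j, inv_inv]
    · refine Finset.sum_eq_zero fun J _ => ?_
      rw [ind_neg fun h' => h ⟨h'.1, h'.2.2⟩, mul_zero]
  · simp

theorem isIrr_St : IsIrrCharacter G (St S) := by
  classical
  have := Fintype.ofFinite G
  refine isIrr_of_norm_one isGen_St ?_ (by rw [St_one, ← Nat.cast_pow, Complex.natCast_re]; positivity)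
  have : St S = ∑ J ∈ (Finset.range D.rank).powerset,
      ((-1 : ℂ) ^ J.card) • fixedPointCharacter (S.P (Cert.nodes D J)) := by
    funext g
    simp [St]
  conv_lhs => enter [2]; rw [this]
  rw [inner_sum_right]
  simp only [CharLib.inner_smul_right, inner_St_fix, map_pow, map_neg, map_one]
  refine Eq.trans (Finset.sum_congr rfl fun J _ => ?_) ((alt_sum (D := D) fun _ => False).trans
    (ind_pos (by simp)))
  congr 1
  exact ind_congr Set.eq_empty_iff_forall_notMem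

theorem defZero_St [Finite F] (hφ : Function.Injective S.φ) (p : ℕ) [Fact p.Prime] [CharP F p] :
    DefZero p (St S) := by
  refine defZero_of_dvd Fact.out (d := Nat.card S.Up) (by rw [St_one, S.card_Up, Nat.cast_pow]) ?_
  exact (S.sylowUp hφ p).card_eq_multiplicity.symm.dvd

/-! ### the number of unipotent elements -/

omit [Finite G] in
theorem card_UJ_mul (J : Set (Nd D)) :
    Nat.card F ^ C.ln (C.w0 J) * Nat.card (S.UJ J) = Nat.card S.Up := by
  rw [Sys.UJ, Sys.Up, S.card_U_pos (Cert.closed_radical J) (fun _ h => h.1),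
    S.card_U_pos Cert.closed_pos (fun _ h => h), ← pow_add, Cert.ln, ← Set.ncard_coe_finset,
    ← Set.ncard_union_eq]
  · congr 2
    ext r
    simp only [Set.mem_union, Finset.mem_coe, Cert.mem_inv, Set.mem_ofPred_eq]
    by_cases h : C.InJ J r
    · simp [h, Cert.pos_w0_iff h]
    · tauto
  · rw [Set.disjoint_left]
    intro r h1 h2
    exact ((C.mem_inv _ _).1 h1).2 (Cert.pos_map_of_not_inJ (C.w0_mem J) h2.1 h2.2)

omit [Finite G] in
theorem conj_mem_UJ {J : Set (Nd D)} {x u : G} (hx : ∀ j ∈ J, ¬ C.Pos (ty S x (C.sp j)))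
    (hu : u ∈ S.Up) (h : x⁻¹ * u * x ∈ S.Up) : x⁻¹ * u * x ∈ S.UJ J := by
  obtain ⟨a, ha, m, hm, b, hb, e⟩ := ty_cell S x
  have h1 : m⁻¹ * (a⁻¹ * u * a) * m ∈ S.U (ty S x ⁻¹' {r | C.Pos r}) :=
    hm.acts.inv_conj_mem (T := {r | C.Pos r}) (fun r hr => by simpa using hr)
      (mul_mem (mul_mem (inv_mem ha) hu) ha)
  have e2 : x⁻¹ * u * x = b⁻¹ * (m⁻¹ * (a⁻¹ * u * a) * m) * b⁻¹⁻¹ := by
    conv_lhs => rw [e]
    group
  have h2 := S.mem_Up_of_mem_U_B (Cert.closed_pos.preimage hm.mem_Aut)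
    ((Cert.nil_of_pos fun _ h => h).preimage hm.mem_W) h1 (S.Up_le_B (by
      convert mul_mem (mul_mem hb h) (inv_mem hb) using 1
      rw [e2]; group))
  rw [e2]
  refine S.P_conj_UJ (inv_mem (S.Up_le_P J hb)) (S.U_mono ?_ h2)
  rintro r ⟨h3, h4⟩
  exact ⟨h4, fun h5 => (Cert.neg_iff_of_max hm.mem_Aut hx h5).1 h3 h4⟩

theorem alt_unip {u : G} (hu : u ∈ S.Up) :
    ∑ J ∈ (Finset.range D.rank).powerset, (-1 : ℂ) ^ J.card *
      ((Nat.card F : ℂ) ^ C.ln (C.w0 (Cert.nodes D J)) *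
        Nat.card {x // x⁻¹ * u * x ∈ S.UJ (Cert.nodes D J)} / Nat.card (S.P (Cert.nodes D J))) = 1 := by
  classical
  have := Fintype.ofFinite G
  have hB : (Nat.card S.B : ℂ) ≠ 0 := Nat.cast_ne_zero.2 Nat.card_pos.ne'
  have h1 : ∀ J : Set (Nd D), (Nat.card F : ℂ) ^ C.ln (C.w0 J) *
      Nat.card {x // x⁻¹ * u * x ∈ S.UJ J} / Nat.card (S.P J) =
      Nat.card {x // x⁻¹ * u * x ∈ S.Up ∧ ∀ j ∈ J, ¬ C.Pos (ty S x (C.sp j))} / Nat.card S.B := by
    intro J
    have h2 := coset_count (S.P J) (fun x => x⁻¹ * u * x ∈ S.UJ J)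
      (fun x => ∀ j ∈ J, ¬ C.Pos (ty S x (C.sp j))) _
      (fun x p hp h => by
        convert S.P_conj_UJ (inv_mem hp) h using 1; group)
      (card_shift (fun x => ∀ j ∈ J, ¬ C.Pos (ty S x (C.sp j))) (S.Cell (C.w0 J))
        (fun _ h => h.mem_P (C.w0_mem J)) fun x p => max_mul_iff)
    rw [card_cell' (C.w0_mem_W J), Nat.card_congr (Equiv.subtypeEquivRight
      (q := fun x => x⁻¹ * u * x ∈ S.Up ∧ ∀ j ∈ J, ¬ C.Pos (ty S x (C.sp j))) fun x =>
        and_congr_left fun hx => ⟨fun h => S.UJ_le_Up J h, conj_mem_UJ hx hu⟩)] at h2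
    have hP : (Nat.card (S.P J) : ℂ) ≠ 0 := Nat.cast_ne_zero.2 Nat.card_pos.ne'
    have h3 := congrArg (Nat.cast : ℕ → ℂ) h2
    push_cast at h3
    field_simp
    linear_combination -h3
  simp only [h1, ← mul_div_assoc, ← Finset.sum_div]
  rw [div_eq_one_iff_eq hB, show (Nat.card S.B : ℂ) = Nat.card {x // x ∈ S.B} from rfl]
  simp only [cast_card_subtype, Finset.mul_sum]
  rw [Finset.sum_comm]
  refine Finset.sum_congr rfl fun x _ => ?_
  by_cases hx : x⁻¹ * u * x ∈ S.Up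
  · simp only [hx, true_and]
    refine (alt_sum fun j => ¬ C.Pos (ty S x (C.sp j))).trans (ind_congr ?_)
    simp only [not_not]
    constructor
    · intro h
      exact Sys.cell_one_iff.1 (Cert.eq_one_of_pos (ty_mem S x) h ▸ ty_cell S x)
    · intro h j
      rw [ty_eq (Sys.cell_one_iff.2 h)]; exact C.pos_sp j
  · simp only [hx, false_and, ind_neg not_false, mul_zero, Finset.sum_const_zero]
    rw [ind_neg]
    exact fun h => hx (by simpa using S.B_conj_Up (inv_mem h) hu)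

theorem card_unipotent [Finite F] (hφ : Function.Injective S.φ) (p : ℕ) [Fact p.Prime] [CharP F p] :
    Nat.card {g : G // ∃ k : ℕ, orderOf g = p ^ k} = Nat.card F ^ (2 * (D.nroots / 2)) := by
  classical
  have := Fintype.ofFinite G
  have h1 : ∀ g : G, ind (∃ k : ℕ, orderOf g = p ^ k) =
      ∑ J ∈ (Finset.range D.rank).powerset, (-1 : ℂ) ^ J.card *
      ((Nat.card F : ℂ) ^ C.ln (C.w0 (Cert.nodes D J)) *
        Nat.card {x // x⁻¹ * g * x ∈ S.UJ (Cert.nodes D J)} / Nat.card (S.P (Cert.nodes D J))) := by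
    intro g
    by_cases h : ∃ k : ℕ, orderOf g = p ^ k
    · rw [ind_pos h]
      obtain ⟨k, hk⟩ := h
      obtain ⟨y, hy⟩ := S.exists_conj_mem_Up hφ p (x := g) (k := k) (hk ▸ pow_orderOf_eq_one g)
      refine (alt_unip hy).symm.trans (Finset.sum_congr rfl fun J _ => ?_)
      congr 4
      exact Nat.card_congr ((Equiv.mulLeft y⁻¹).subtypeEquiv fun x => by simp [mul_assoc])
    · rw [ind_neg h, eq_comm]
      refine Finset.sum_eq_zero fun J _ => ?_
      have : IsEmpty {x // x⁻¹ * g * x ∈ S.UJ (Cert.nodes D J)} := ⟨fun ⟨x, hx⟩ => h (by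
        obtain ⟨k, hk⟩ := IsPGroup.iff_orderOf.1 (S.isPGroup_Up p) ⟨_, S.UJ_le_Up _ hx⟩
        refine ⟨k, ?_⟩
        rw [← hk, Subgroup.orderOf_mk]
        exact (MulAut.conj x⁻¹).orderOf_eq g ▸ by simp)⟩
      simp
  apply Nat.cast_injective (R := ℂ)
  rw [cast_card_subtype, Finset.sum_congr rfl fun g _ => h1 g, Finset.sum_comm, two_mul, pow_add,
    Nat.cast_mul, Nat.cast_pow, ← St_one (S := S)]
  conv_rhs => enter [1]; rw [St]
  rw [Finset.sum_mul]
  refine Finset.sum_congr rfl fun J _ => ?_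
  have hP : (Nat.card (S.P (Cert.nodes D J)) : ℂ) ≠ 0 := Nat.cast_ne_zero.2 Nat.card_pos.ne'
  rw [← Finset.mul_sum, ← Finset.sum_div, ← Finset.mul_sum, sum_card_conj_mem, St_one,
    ← Nat.cast_pow _ (D.nroots / 2), ← S.card_Up, ← card_UJ_mul (Cert.nodes D J), fixedPointCharacter,
    MulAction.fixedBy_one_eq_univ, Nat.card_univ, Subgroup.card_eq_card_quotient_mul_card_subgroup
      (S.P (Cert.nodes D J))]
  push_cast
  field_simp

end Cfsg.Agent.StB
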