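import Cfsg.Agent.StB.Corner
import Cfsg.Agent.StB.St
/-!
# The Tits deformation argument for the Hecke algebra of a Chevalley group
-/
set_option autoImplicit false
set_option linter.unusedSectionVars false

namespace Cfsg.Agent.StB
open Cfsg Cfsg.Agent.Chev Cfsg.Agent.CharLib Cfsg.Lie Equiv Module

section general
variable {G : Type*} [Group G] [Fintype G]

/-- the idempotent of a subgroup -/
noncomputable def eSub (B : Subgroup G) : GA G := el fun g => ind (g ∈ B) / Nat.card B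

theorem og_mul_eSub {B : Subgroup G} {b : G} (hb : b ∈ B) : og b * eSub B = eSub B := by
  rw [eSub, og_mul_el]
  simp only [ind_congr (B.mul_mem_cancel_left (inv_mem hb))]

theorem eSub_mul_og {B : Subgroup G} {b : G} (hb : b ∈ B) : eSub B * og b = eSub B := by
  rw [eSub, el_mul_og]
  simp only [ind_congr (B.mul_mem_cancel_right (inv_mem hb))]

theorem sum_ind_div (B : Subgroup G) : ∑ g, ind (g ∈ B) / (Nat.card B : ℂ) = 1 := by
  rw [← Finset.sum_div, ← cast_card_subtype]
  exact div_self (Nat.cast_ne_zero.2 Nat.card_pos.ne')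

theorem eSub_mul {B : Subgroup G} {v : GA G} (h : ∀ b ∈ B, og b * v = v) : eSub B * v = v := by
  rw [eSub, el, Finset.sum_mul, Finset.sum_congr rfl (g := fun g => (ind (g ∈ B) / (Nat.card B : ℂ)) • v),
    ← Finset.sum_smul, sum_ind_div, one_smul]
  intro g _
  rw [smul_mul_assoc]
  by_cases hg : g ∈ B
  · rw [h g hg]
  · simp [ind_neg hg]

theorem hat_og_mul_eSub {B : Subgroup G} {f : G → ℂ} (h : ∀ g, ∀ b ∈ B, f (g * b) = f g) (g : G) :
    hat f (og g * eSub B) = f g := by
  rw [eSub, el, Finset.mul_sum, map_sum,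
    Finset.sum_congr rfl (g := fun b => (ind (b ∈ B) / (Nat.card B : ℂ)) * f g),
    ← Finset.sum_mul, sum_ind_div, one_mul]
  intro b _
  rw [mul_smul_comm, map_smul, ← map_mul, hat_og, smul_eq_mul]
  by_cases hb : b ∈ B
  · rw [h g b hb]
  · simp [ind_neg hb]

theorem inner_fix_eq_hat (B : Subgroup G) {χ : G → ℂ} (hχ : IsCharacter G χ) :
    classInner (fixedPointCharacter B) χ = hat χ (eSub B) := by
  have h1 : ∀ g, fixedPointCharacter B g = (∑ x, ind (x⁻¹ * g * x ∈ B)) / Nat.card B := fun g => by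
    rw [eq_div_iff (Nat.cast_ne_zero.2 Nat.card_pos.ne'), ← cast_card_subtype, ← card_fixedBy_mul,
      Nat.cast_mul]; rfl
  have hc := isChar_classFun hχ
  rw [inner_eq_inv hχ, eSub, hat_el]
  simp only [h1, Finset.sum_div, Finset.sum_mul]
  rw [Finset.sum_comm, Finset.sum_congr rfl (g := fun _ => ∑ g, ind (g ∈ B) / Nat.card B * χ g)]
  · rw [Finset.sum_const, Finset.card_univ, nsmul_eq_mul, ← Nat.card_eq_fintype_card, ← mul_assoc,
      inv_mul_cancel₀ card_ne_zero, one_mul]
  · intro x _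
    refine Fintype.sum_equiv ((MulAut.conj x⁻¹).toEquiv.trans (Equiv.inv G)) _ _ fun g => ?_
    have := hc g⁻¹ x⁻¹
    simp only [inv_inv] at this
    simp [ind_congr (inv_mem_iff (H := B) (x := x⁻¹ * g * x)).symm, ← mul_assoc, this]

theorem constituent_iff (B : Subgroup G) (χ : IrrCharacter G) :
    (∃ φ : G → ℂ, IsCharacter G φ ∧ fixedPointCharacter B = (χ : G → ℂ) + φ) ↔
      hat (χ : G → ℂ) (eSub B) ≠ 0 := by
  rw [← inner_fix_eq_hat B (isChar_of_irr χ.2)]
  constructor
  · rintro ⟨φ, h1, h2⟩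
    obtain ⟨n, hn⟩ := inner_char_nat h1 (isChar_of_irr χ.2)
    rw [h2, CharLib.inner_add_left, inner_irr_self χ.2, hn]
    exact_mod_cast (by omega : 1 + n ≠ 0)
  · exact fun h => ⟨_, isChar_sub_of_inner_ne_zero (isChar_fixedBy (G ⧸ B)) χ.2 h, by
      rw [add_sub_cancel]; rfl⟩

/-- the regular representation on the group algebra -/
noncomputable def lreg : Representation ℂ G (GA G) :=
  (Algebra.lmul ℂ (GA G) : GA G →* Module.End ℂ (GA G)).comp og

theorem lreg_apply (g : G) (v : GA G) : lreg g v = og g * v := rfl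

end general

variable {D : ChevalleyDatum} (C : Cert D)

/-- a simple reflection -/
noncomputable def sW (i : Nd D) : C.W := ⟨C.ss i, C.ss_mem_W i⟩

open Classical in
/-- left multiplication by a generator in the generic Hecke algebra -/
noncomputable def hkL (t : ℂ) (i : Nd D) : Module.End ℂ (C.W → ℂ) :=
  (Pi.basisFun ℂ C.W).constr ℂ fun w => if C.Pos ((w : Perm (Rt D))⁻¹ (C.sp i)) then
    Pi.basisFun ℂ C.W (sW C i * w) else
      t • Pi.basisFun ℂ C.W (sW C i * w) + (t - 1) • Pi.basisFun ℂ C.W w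

/-- a reduced word -/
noncomputable def redW (w : C.W) : List (Nd D) := (C.exists_reduced w.2).choose

/-- the multiplication of the generic Hecke algebra -/
noncomputable def hkM (t : ℂ) : (C.W → ℂ) →ₗ[ℂ] (C.W → ℂ) →ₗ[ℂ] (C.W → ℂ) :=
  (Pi.basisFun ℂ C.W).constr ℂ fun x => ((redW C x).map (hkL C t)).prod

theorem polyF_hkL (i : Nd D) : (fun t => hkL C t i) ∈ polyF (Module.End ℂ (C.W → ℂ)) := by
  classical
  have := Fintype.ofFinite C.W
  refine polyF_map (E := C.W → C.W → ℂ) (E' := Module.End ℂ (C.W → ℂ))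
    ((Pi.basisFun ℂ C.W).constr ℂ).toLinearMap (polyF_pi fun w => ?_)
  split_ifs
  · exact polyF_const _
  · simp only [sub_eq_add_neg, add_smul]
    exact polyF_add (polyF_lin _) (polyF_add (polyF_lin _) (polyF_const _))

theorem polyF_hkM : hkM C ∈ polyF ((C.W → ℂ) →ₗ[ℂ] (C.W → ℂ) →ₗ[ℂ] (C.W → ℂ)) := by
  have := Fintype.ofFinite C.W
  exact polyF_map (E := C.W → Module.End ℂ (C.W → ℂ))
    (E' := (C.W → ℂ) →ₗ[ℂ] (C.W → ℂ) →ₗ[ℂ] (C.W → ℂ))
    ((Pi.basisFun ℂ C.W).constr ℂ).toLinearMap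
    (polyF_pi fun w => polyF_list_prod (fun i t => hkL C t i) (polyF_hkL C) _)

variable {C}

theorem hkM_mul {A : Type*} [Ring A] [Algebra ℂ A] {t : ℂ} {T : C.W → A} (h1 : ∀ w, T 1 * T w = T w)
    (hp : ∀ i (w : C.W), C.Pos ((w : Perm (Rt D))⁻¹ (C.sp i)) → T (sW C i) * T w = T (sW C i * w))
    (hn : ∀ i (w : C.W), ¬ C.Pos ((w : Perm (Rt D))⁻¹ (C.sp i)) →
      T (sW C i) * T w = t • T (sW C i * w) + (t - 1) • T w) (a b : C.W → ℂ) :
    (Pi.basisFun ℂ C.W).constr ℂ T (hkM C t a b) =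
      (Pi.basisFun ℂ C.W).constr ℂ T a * (Pi.basisFun ℂ C.W).constr ℂ T b := by
  set ι := (Pi.basisFun ℂ C.W).constr ℂ T
  have hι : ∀ w, ι (Pi.basisFun ℂ C.W w) = T w := fun w => Basis.constr_basis _ _ _ _
  have h2 : ∀ i v, ι (hkL C t i v) = T (sW C i) * ι v := fun i =>
    LinearMap.congr_fun ((Pi.basisFun ℂ C.W).ext (f₁ := ι ∘ₗ hkL C t i)
      (f₂ := LinearMap.mulLeft ℂ (T (sW C i)) ∘ₗ ι) fun w => by
        rw [LinearMap.comp_apply, LinearMap.comp_apply, LinearMap.mulLeft_apply, hι, hkL,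
          Basis.constr_basis]
        split_ifs with h
        · rw [hι, hp i w h]
        · rw [map_add, map_smul, map_smul, hι, hι, hn i w h])
  have h3 : ∀ l, C.Red l → ι ((l.map (hkL C t)).prod b) = T ⟨C.wd l, C.wd_mem_W l⟩ * ι b := by
    intro l hl
    induction l with
    | nil => exact LinearMap.congr_fun ((Pi.basisFun ℂ C.W).ext (f₁ := ι)
        (f₂ := LinearMap.mulLeft ℂ (T 1) ∘ₗ ι) fun w => by
          rw [LinearMap.comp_apply, LinearMap.mulLeft_apply, hι, h1]) b
    | cons i l ih =>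
      rw [List.map_cons, List.prod_cons, Module.End.mul_apply, h2, ih hl.of_cons, ← mul_assoc, hp]
      · rfl
      · by_contra h
        have h4 := Cert.Aut.ln_ss_mul_of_neg (C.wd_mem_Aut l) h
        have h5 := C.ln_wd_le l
        rw [Cert.Red, Cert.wd_cons, List.length_cons] at hl
        omega
  exact LinearMap.congr_fun ((Pi.basisFun ℂ C.W).ext (f₁ := ι ∘ₗ (hkM C t).flip b)
    (f₂ := LinearMap.mulRight ℂ (ι b) ∘ₗ ι) fun x => by
      obtain ⟨-, h4, h5⟩ := (C.exists_reduced x.2).choose_spec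
      rw [LinearMap.comp_apply, LinearMap.comp_apply, LinearMap.mulRight_apply, hι,
        LinearMap.flip_apply, hkM, Basis.constr_basis, h3 _ (by rw [Cert.Red, redW, h4, h5])]
      congr 2
      exact Subtype.ext h4) a

theorem constr_eq_sum [Fintype C.W] {A : Type*} [AddCommGroup A] [Module ℂ A] (T : C.W → A)
    (a : C.W → ℂ) : (Pi.basisFun ℂ C.W).constr ℂ T a = ∑ w, a w • T w := by
  simp [Basis.constr_apply_fintype]

theorem corner_W [Fintype C.W] : Corner (1 : GA C.W) (hkM C 1) ((Pi.basisFun ℂ C.W).constr ℂ og) where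
  idem := one_mul _
  inj a b h := by
    rw [constr_eq_sum, constr_eq_sum] at h
    exact el_inj h
  mul := hkM_mul (fun w => by simp) (fun i w _ => by rw [map_mul]) fun i w _ => by simp
  left := by simp
  right := by simp
  surj g := ⟨Pi.basisFun ℂ C.W g, by rw [Basis.constr_basis]; simp⟩

variable {F : Type*} [Field F] [Fintype F] {G : Type*} [Group G] [Fintype G] (S : Sys C F G)
  (hφ : Function.Injective S.φ)

include hφ in
theorem exists_corner : ∃ ι, Corner (eSub S.B) (hkM C (Fintype.card F)) ι := by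
  classical
  have := Fintype.ofFinite C.W
  choose m hm using fun w : C.W => S.exists_over w.2
  let R := sbn S hφ
  have he : R.Fx lreg (eSub S.B) := fun u hu => og_mul_eSub (S.Up_le_B hu)
  have hee : eSub S.B * eSub S.B = eSub S.B := eSub_mul fun b hb => og_mul_eSub hb
  have hT : ∀ g v, R.T lreg g v = (∑ q ∈ R.orb g, og q.out) * v := fun g v => by
    rw [SBN.T_apply, Finset.sum_mul]; rfl
  have h1 : ∀ g, ∀ a ∈ S.H, R.T lreg (g * a) (eSub S.B) = R.T lreg g (eSub S.B) := fun g a ha => by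
    rw [he.T_mul_H ha, lreg_apply, og_mul_eSub (S.H_le_B ha)]
  have h2 : ∀ {n w}, S.Over n (w : C.W) → R.T lreg (m w) (eSub S.B) = R.T lreg n (eSub S.B) := by
    intro n w hn
    have h3 := hn.inv.mul (hm w)
    rw [inv_mul_cancel] at h3
    rw [← h1 n _ h3.mem_H, mul_inv_cancel_left]
  have h3 : ∀ n ∈ S.N, ∀ a ∈ S.H, lreg a (R.T lreg n (eSub S.B)) = R.T lreg n (eSub S.B) := by
    intro n hn a ha
    rw [he.H_T ha, ← h1 n _ (R.N_H n hn a ha)]
    congr 2
    group
  have h4 : ∀ n ∈ S.N, eSub S.B * R.T lreg n (eSub S.B) = R.T lreg n (eSub S.B) := fun n hn =>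
    eSub_mul fun b hb => by
      obtain ⟨u, hu, a, ha, rfl⟩ := S.mem_B.1 hb
      rw [map_mul, mul_assoc, ← lreg_apply a, h3 n hn a ha]
      exact he.T n u hu
  have h5 : ∀ g, ∀ n ∈ S.N, R.T lreg g (eSub S.B) * R.T lreg n (eSub S.B) =
      R.T lreg g (R.T lreg n (eSub S.B)) := fun g n hn => by rw [hT g, mul_assoc, h4 n hn, ← hT]
  refine ⟨(Pi.basisFun ℂ C.W).constr ℂ fun w => R.T lreg (m w) (eSub S.B), hee,
    (injective_iff_map_eq_zero _).2 fun a ha => funext fun w => ?_,
    hkM_mul (fun w => ?_) (fun i w h => ?_) fun i w h => ?_, fun a => ?_, fun a => ?_, fun g => ?_⟩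
  · have h6 := congrArg (hat fun g => ind (ty S g = w)) ha
    have h7 : ∀ v, hat (fun g => ind (ty S g = w)) (R.T lreg (m v) (eSub S.B)) =
        (R.orb (m v)).card * ind (v = w) := fun v => by
      rw [SBN.T_apply, map_sum, Finset.sum_congr rfl (g := fun _ => ind (v = w)), Finset.sum_const,
        nsmul_eq_mul]
      intro q hq
      rw [SBN.ev, lreg_apply, hat_og_mul_eSub fun g b hb => by rw [ty_eq ((ty_cell S g).mul_B hb)]]
      rw [← q.out_eq'] at hq
      obtain ⟨u, hu, u', hu', e⟩ := R.mk_mem_orb.1 hq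
      rw [ty_eq ⟨u, hu, _, hm v, u', hu', e⟩]
      exact ind_congr Subtype.ext_iff.symm
    rw [constr_eq_sum, map_sum, map_zero, Finset.sum_eq_single w] at h6
    · rw [map_smul, h7, ind_pos rfl, mul_one, smul_eq_mul] at h6
      exact (mul_eq_zero.1 h6).resolve_right
        (Nat.cast_ne_zero.2 (Finset.card_pos.2 ⟨_, R.self_mem_orb _⟩).ne')
    · intro v _ hv
      rw [map_smul, h7, ind_neg hv]; simp
    · simp
  · rw [h2 S.over_one, he.T_one, h4 _ (hm w).mem_N]
  · rw [h2 (S.over_ns i 1), h2 (w := sW C i * w) ((S.over_ns i 1).mul (hm w)), h5 _ _ (hm w).mem_N]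
    exact (he.T_n_mul (hm w).mem_N ((over_pos_iff (hm w) _).2 h)).symm
  · have h6 := (S.over_ns i 1).inv.mul (hm w)
    have h7 := (R.dich i _ (hm w).mem_N).resolve_left fun h' => h ((over_pos_iff (hm w) _).1 h')
    have h8 := he.T_n_mul (i := i) h6.mem_N h7
    rw [C.ss_inv] at h6
    rw [show R.n i = S.n (C.sp i) 1 from rfl, mul_inv_cancel_left] at h8
    rw [h2 (S.over_ns i 1), h2 (w := sW C i * w) h6, h5 _ _ (hm w).mem_N]
    conv_lhs => rw [h8]
    refine ((he.T _).T_sq i).trans ?_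
    rw [h3 _ h6.mem_N _ (R.n_sq i), show R.n i = S.n (C.sp i) 1 from rfl, ← h8,
      Finset.sum_congr rfl fun s _ => h3 _ (hm w).mem_N _ (R.h_mem i s), Finset.sum_const,
      Finset.card_univ, Fintype.card_units, ← Nat.cast_smul_eq_nsmul ℂ, ← Nat.cast_smul_eq_nsmul ℂ,
      Nat.cast_pred Fintype.card_pos]
  · rw [constr_eq_sum, Finset.mul_sum]
    exact Finset.sum_congr rfl fun w _ => by rw [mul_smul_comm, h4 _ (hm w).mem_N]
  · rw [constr_eq_sum, Finset.sum_mul]
    exact Finset.sum_congr rfl fun w _ => by rw [smul_mul_assoc, hT, mul_assoc, hee]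
  · obtain ⟨w, hw, u, hu, n, hn, u', hu', rfl⟩ := S.exists_cell g
    have h6 : ∀ u ∈ S.Up, ∀ u' ∈ S.Up, eSub S.B * og (u * n * u') * eSub S.B =
        eSub S.B * og n * eSub S.B := fun u hu u' hu' => by
      rw [map_mul, map_mul, ← mul_assoc, ← mul_assoc, eSub_mul_og (S.Up_le_B hu), mul_assoc _ (og u'),
        og_mul_eSub (S.Up_le_B hu')]
    refine ⟨((R.orb n).card : ℂ)⁻¹ • Pi.basisFun ℂ C.W ⟨w, hw⟩, ?_⟩
    rw [map_smul, Basis.constr_basis, h2 hn, ← h4 _ hn.mem_N, hT, Finset.sum_mul, Finset.mul_sum,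
      Finset.sum_congr rfl (g := fun _ => eSub S.B * og n * eSub S.B), Finset.sum_const,
      ← Nat.cast_smul_eq_nsmul ℂ, smul_smul,
      inv_mul_cancel₀ (Nat.cast_ne_zero.2 (Finset.card_pos.2 ⟨_, R.self_mem_orb _⟩).ne'), one_smul,
      h6 u hu u' hu']
    intro q hq
    rw [← q.out_eq'] at hq
    obtain ⟨u, hu, u', hu', e⟩ := R.mk_mem_orb.1 hq
    rw [← mul_assoc, e, h6 u hu u' hu']

include hφ in
theorem card_constituents : Nat.card {χ : IrrCharacter G //
    ∃ φ : G → ℂ, IsCharacter G φ ∧ fixedPointCharacter S.B = (χ : G → ℂ) + φ} =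
      Nat.card (ConjClasses C.W) := by
  have := Fintype.ofFinite C.W
  obtain ⟨ι, h⟩ := exists_corner S hφ
  have ha : {t | ∀ a b c, hkM C t (hkM C t a b) c = hkM C t a (hkM C t b c)}.Infinite := by
    refine Set.infinite_of_injective_forall_mem (f := fun n : ℕ => ((2 ^ (n + 1) : ℕ) : ℂ))
      (fun a b e => ?_) fun n => ?_
    · have := Nat.pow_right_injective le_rfl (Nat.cast_injective e)
      omega
    · have := Fintype.ofFinite (GaloisField 2 (n + 1))
      have := Fintype.ofFinite (D.group (GaloisField 2 (n + 1)))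
      obtain ⟨ι, h⟩ := exists_corner _ (C.sys_φ_inj (GaloisField 2 (n + 1)))
      rw [← Nat.card_eq_fintype_card, GaloisField.card 2 (n + 1) (by omega)] at h
      exact h.assoc
  simp only [constituent_iff]
  rw [← h.finrank_center, le_antisymm (finrank_center_le (polyF_hkM C) ha 1 h.inner)
    (finrank_center_le (polyF_hkM C) ha _ corner_W.inner), corner_W.finrank_center,
    ← card_irr_eq_card_conjClasses]
  exact Nat.card_congr (Equiv.subtypeUnivEquiv fun χ => by
    rw [← map_one og, hat_og]; exact isIrr_one_ne_zero χ.2)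

end Cfsg.Agent.StB
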