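import Cfsg.Agent.StB.SLBN
import Cfsg.Agent.GLn.ParabCard
import Cfsg.Agent.Forms.PermNorm
/-!
# The Steinberg character of the special linear group
-/
set_option autoImplicit false

namespace Cfsg.Agent.StB
open Cfsg Cfsg.Agent.GLn Cfsg.Agent.CharLib Matrix

variable {F : Type*} [Field F] [Fintype F] {n : ℕ}

theorem steinbergGL_one : unipotentCharacterGL n F (fun _ => 1) 1 = (Fintype.card F : ℂ) ^ (n * (n - 1) / 2) := by
  have h := unipotentCharacterGL_degree (F := F) (ν := fun _ : Fin n => 1) (by simp)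
  set q := Fintype.card F
  have h1 : ∀ j : ℕ, ∏ i ∈ Finset.range j, (((∑ l ∈ Finset.range (1 + j), q ^ l : ℕ) : ℂ) -
      ((∑ l ∈ Finset.range (1 + i), q ^ l : ℕ) : ℂ)) =
        (q : ℂ) ^ j * q ^ (∑ i ∈ Finset.range j, i) * qFact q j := fun j => by
    rw [qFact, ← Finset.prod_range_reflect (fun j => ∑ l ∈ Finset.range (j + 1), q ^ l), Nat.cast_prod,
      ← Finset.prod_pow_eq_pow_sum]
    conv_rhs => enter [1, 1]; rw [← Finset.card_range j, ← Finset.prod_const]
    rw [← Finset.prod_mul_distrib, ← Finset.prod_mul_distrib]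
    refine Finset.prod_congr rfl fun i hi => ?_
    rw [show 1 + j = 1 + i + (j - 1 - i + 1) by have := Finset.mem_range.1 hi; omega,
      Finset.sum_range_add]
    simp [pow_add, Finset.mul_sum]
  rw [Finset.prod_comm' (t' := Finset.univ) (s' := fun j => Finset.Iio j) (by simp)] at h
  have h2 : ∀ j : Fin n, ∏ i ∈ Finset.Iio j, (((∑ l ∈ Finset.range (1 + j.val), q ^ l : ℕ) : ℂ) -
      ((∑ l ∈ Finset.range (1 + i.val), q ^ l : ℕ) : ℂ)) =
        (q : ℂ) ^ j.val * q ^ (∑ i ∈ Finset.range j.val, i) * qFact q j := fun j => by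
    rw [← h1, ← Nat.Iio_eq_range j.val, ← Fin.map_valEmbedding_Iio, Finset.prod_map]; rfl
  simp only [h2] at h
  rw [Fin.prod_univ_eq_prod_range (fun j => (q : ℂ) ^ j * q ^ (∑ i ∈ Finset.range j, i) * qFact q j),
    Fin.prod_univ_eq_prod_range (fun j => (qFact q (1 + j) : ℂ)), Finset.prod_mul_distrib,
    Finset.prod_mul_distrib, Finset.prod_pow_eq_pow_sum, Finset.prod_pow_eq_pow_sum, sum_choose_two,
    Finset.sum_range_id] at h
  have h3 := (Finset.prod_range_succ (fun j => (qFact q j : ℂ)) n).symm.trans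
    (Finset.prod_range_succ' (fun j => (qFact q j : ℂ)) n)
  simp only [add_comm _ 1, show qFact q 0 = 1 from rfl, Nat.cast_one, mul_one] at h3
  have h4 : ∏ j ∈ Finset.range n, (qFact q (1 + j) : ℂ) ≠ 0 :=
    Finset.prod_ne_zero_iff.2 fun j _ => Nat.cast_ne_zero.2 (qFact_pos _ _).ne'
  have h5 : (q : ℂ) ≠ 0 := Nat.cast_ne_zero.2 Fintype.card_ne_zero
  refine mul_right_cancel₀ (pow_ne_zero _ h5) (mul_right_cancel₀ h4 (h.trans ?_))
  rw [← h3]; ring

omit [Fintype F] in
theorem exists_det_stab [NeZero n] {a b : Fin n → ℕ} (ha : Monotone a) (hb : Monotone b)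
    (x y : GL (Fin n) F) (c : Fˣ) : ∃ t : GL (Fin n) F, x⁻¹ * t * x ∈ parab F a ∧
      y⁻¹ * t * y ∈ parab F b ∧ Matrix.GeneralLinearGroup.det t = c := by
  obtain ⟨v, hv, π, u, hu, -, e⟩ := bruhat (x⁻¹ * y)
  let d : GL (Fin n) F := Matrix.GeneralLinearGroup.mkOfDetNeZero (diagonal (Function.update 1 0 (c : F)))
    (by simp [Finset.prod_update_of_mem])
  refine ⟨x * v * d * (x * v)⁻¹, parab_val_le ha ?_, parab_val_le hb ?_, Units.ext ?_⟩
  · rw [show x⁻¹ * (x * v * d * (x * v)⁻¹) * x = v * d * v⁻¹ by group]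
    exact mul_mem (mul_mem hv (blockTriangular_diagonal _)) (inv_mem hv)
  · rw [show y = x * v * permGL F π * u⁻¹ by rw [mul_assoc x, ← e]; group,
      show (x * v * permGL F π * u⁻¹)⁻¹ * (x * v * d * (x * v)⁻¹) * (x * v * permGL F π * u⁻¹) =
        u * (permGL F π⁻¹ * d * permGL F π) * u⁻¹ by rw [map_inv]; group]
    refine mul_mem (mul_mem hu fun i j h => ?_) (inv_mem hu)
    rw [Units.val_mul, Units.val_mul, mul_permGL_apply, permGL_mul_apply, inv_inv]
    exact diagonal_apply_ne _ fun e => by rw [π.injective e] at h; exact lt_irrefl _ h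
  · rw [map_mul, map_mul, mul_right_comm, map_inv, mul_inv_cancel, one_mul]
    simp [d, Finset.prod_update_of_mem]

theorem inner_res_fix [NeZero n] [Fintype (GL (Fin n) F)] [Fintype (SpecialLinearGroup (Fin n) F)]
    {a b : Fin n → ℕ} (ha : Monotone a) (hb : Monotone b) :
    classInner (fun g : SpecialLinearGroup (Fin n) F => fixedPointCharacter (parab F a) g.toGL)
      (fun g => fixedPointCharacter (parab F b) g.toGL) =
      classInner (fixedPointCharacter (parab F a)) (fixedPointCharacter (parab F b)) := by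
  let _ := MulAction.compHom (GL (Fin n) F ⧸ parab F a) (SpecialLinearGroup.toGL (n := Fin n) (R := F))
  let _ := MulAction.compHom (GL (Fin n) F ⧸ parab F b) (SpecialLinearGroup.toGL (n := Fin n) (R := F))
  refine (Forms.inner_fixedBy (G := SpecialLinearGroup (Fin n) F) (GL (Fin n) F ⧸ parab F a)
    (GL (Fin n) F ⧸ parab F b)).trans (Eq.trans ?_ (Forms.inner_fixedBy (G := GL (Fin n) F)
      (GL (Fin n) F ⧸ parab F a) (GL (Fin n) F ⧸ parab F b)).symm)
  congr 1
  refine Nat.card_congr (Quotient.congr (Equiv.refl _) fun z w => ⟨fun ⟨g, h⟩ => ⟨g.toGL, h⟩, ?_⟩)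
  rintro ⟨g, rfl⟩
  obtain ⟨x, y⟩ := w
  induction x using QuotientGroup.induction_on with | H x => ?_
  induction y using QuotientGroup.induction_on with | H y => ?_
  obtain ⟨t, h1, h2, h3⟩ := exists_det_stab ha hb x y (Matrix.GeneralLinearGroup.det g)⁻¹
  obtain ⟨s, hs⟩ : g * t ∈ (SpecialLinearGroup.toGL (n := Fin n) (R := F)).range := by
    rw [range_toGL_eq_ker_det, MonoidHom.mem_ker, map_mul, h3, mul_inv_cancel]
  refine ⟨s, Prod.ext ?_ ?_⟩
  · change ((s.toGL * x : GL (Fin n) F) : _ ⧸ parab F a) = ((g * x : GL (Fin n) F) : _ ⧸ parab F a)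
    rw [hs, eq_comm, QuotientGroup.eq]; convert h1 using 1; group
  · change ((s.toGL * y : GL (Fin n) F) : _ ⧸ parab F b) = ((g * y : GL (Fin n) F) : _ ⧸ parab F b)
    rw [hs, eq_comm, QuotientGroup.eq]; convert h2 using 1; group

/-- the Steinberg character of `SL` -/
noncomputable def StSL (n : ℕ) (F : Type*) [Field F] (g : SpecialLinearGroup (Fin n) F) : ℂ :=
  unipotentCharacterGL n F (fun _ => 1) g.toGL

theorem StSL_one : StSL n F 1 = (Fintype.card F : ℂ) ^ (n * (n - 1) / 2) := by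
  rw [StSL, map_one, steinbergGL_one]

theorem isIrr_StSL [NeZero n] : IsIrrCharacter _ (StSL n F) := by
  classical
  have := Fintype.ofFinite (GL (Fin n) F)
  refine isIrr_of_norm_one (isGen_comp _ (isGen_unipotentCharacterGL _)) ?_ (by
    rw [StSL_one]; norm_cast; positivity)
  have h := inner_unipotentCharacterGL (F := F) (ν := fun _ : Fin n => 1) (μ := fun _ => 1)
    monotone_const (by simp) monotone_const (by simp)
  rw [if_pos rfl] at h
  obtain ⟨c, a, ha, e⟩ : ∃ (c : Equiv.Perm (Fin n) → ℂ) (a : Equiv.Perm (Fin n) → Fin n → ℕ),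
      (∀ κ, Monotone (a κ)) ∧ ∀ g, unipotentCharacterGL n F (fun _ => 1) g =
        ∑ κ, c κ * fixedPointCharacter (parab F (a κ)) g :=
    ⟨fun κ => if ∀ i : Fin n, (κ i).val ≤ 1 + i.val then ((Equiv.Perm.sign κ : ℤ) : ℂ) else 0,
      fun κ => compLabel fun i => 1 + i.val - (κ i).val, fun κ => compLabel_monotone _,
      fun g => Finset.sum_congr rfl fun κ _ => by rw [ite_mul, zero_mul]; rfl⟩
  rw [show unipotentCharacterGL n F (fun _ => 1) = ∑ κ, c κ • fixedPointCharacter (parab F (a κ)) by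
    ext g; simp [e]] at h
  rw [← h, show StSL n F = ∑ κ, c κ • fun g : SpecialLinearGroup (Fin n) F =>
    fixedPointCharacter (parab F (a κ)) g.toGL by ext g; simp [StSL, e]]
  simp only [inner_sum_left, inner_sum_right, CharLib.inner_smul_left, CharLib.inner_smul_right,
    inner_res_fix (ha _) (ha _)]

theorem defZero_StSL (p : ℕ) [Fact p.Prime] [CharP F p] : DefZero p (StSL n F) :=
  ⟨1, ∏ i ∈ Finset.Icc 2 n, (Fintype.card F ^ i - 1), (Nat.Prime.coprime_iff_not_dvd Fact.out).1
    (Nat.Coprime.prod_right fun i hi => coprime_card_pow_sub_one p (by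
      have := (Finset.mem_Icc.1 hi).1; omega)), by rw [StSL_one, card_SL_eq]; push_cast; ring⟩

omit [Fintype F] in
theorem StSL_central {z : SpecialLinearGroup (Fin n) F} (hz : z ∈ Subgroup.center _) :
    StSL n F z = StSL n F 1 := by
  obtain ⟨r, -, hr⟩ := Matrix.SpecialLinearGroup.mem_center_iff.1 hz
  refine Finset.sum_congr rfl fun κ _ => ?_
  congr 2
  rw [map_one, fixedPointCharacter, fixedPointCharacter, MulAction.fixedBy_one_eq_univ]
  congr 3
  refine Set.eq_univ_of_forall fun x => ?_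
  induction x using QuotientGroup.induction_on with | H x => ?_
  refine QuotientGroup.eq.2 ?_
  have h : z.toGL * x = x * z.toGL := Units.ext (by
    change z.1 * x.1 = x.1 * z.1
    rw [← hr]; exact (scalar_commute r (fun _ => Commute.all _ _) _).eq)
  change (z.toGL * x)⁻¹ * x ∈ _
  rw [h, _root_.mul_inv_rev, inv_mul_cancel_right]
  refine inv_mem (?_ : z.1.BlockTriangular _)
  rw [← hr]; exact blockTriangular_diagonal _

end Cfsg.Agent.StB
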