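import Cfsg.Agent.StB.Deform
import Cfsg.Agent.CharLib.ClassFun
/-!
# The Hecke algebra `e ℂG e`: centre and derivations
-/
set_option autoImplicit false
set_option linter.unusedSectionVars false

namespace Cfsg.Agent.StB
open Cfsg Cfsg.Agent.CharLib Module
open scoped ComplexConjugate

variable {G : Type*} [Group G] [Fintype G]

/-- the group algebra -/
abbrev GA (G : Type*) [Group G] : Type _ := MonoidAlgebra ℂ G

/-- group elements in the group algebra -/
noncomputable def og : G →* GA G := MonoidAlgebra.of ℂ G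

theorem basis_eq (g : G) : MonoidAlgebra.basis G ℂ g = og g := by
  simp [og]

theorem ga_ext {M : Type*} [AddCommGroup M] [Module ℂ M] {f f' : GA G →ₗ[ℂ] M}
    (h : ∀ g, f (og g) = f' (og g)) : f = f' :=
  (MonoidAlgebra.basis G ℂ).ext fun g => by rw [basis_eq, h]

/-- the element with given coefficients -/
noncomputable def el (f : G → ℂ) : GA G := ∑ g, f g • og g

theorem exists_el (a : GA G) : ∃ f, a = el f :=
  ⟨(MonoidAlgebra.basis G ℂ).repr a, by
    have := ((MonoidAlgebra.basis G ℂ).sum_repr a).symm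
    simp only [basis_eq] at this
    exact this⟩

/-- the linear extension of a function -/
noncomputable def hat (f : G → ℂ) : GA G →ₗ[ℂ] ℂ := (MonoidAlgebra.basis G ℂ).constr ℂ f

theorem hat_og (f : G → ℂ) (g : G) : hat f (og g) = f g := by
  rw [hat, ← basis_eq, Basis.constr_basis]

theorem hat_el (f f' : G → ℂ) : hat f (el f') = ∑ g, f' g * f g := by
  simp [el, hat_og]

theorem el_inj {f f' : G → ℂ} (h : el f = el f') : f = f' := by
  classical
  funext g
  have := congrArg (hat (Pi.single g 1)) h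
  simpa [hat_el, Pi.single_apply] using this

theorem og_mul_el (a : G) (f : G → ℂ) : og a * el f = el fun g => f (a⁻¹ * g) := by
  simp only [el, Finset.mul_sum, mul_smul_comm, ← map_mul]
  exact Fintype.sum_equiv (Equiv.mulLeft a) _ _ fun g => by simp

theorem el_mul_og (a : G) (f : G → ℂ) : el f * og a = el fun g => f (g * a⁻¹) := by
  simp only [el, Finset.sum_mul, smul_mul_assoc, ← map_mul]
  exact Fintype.sum_equiv (Equiv.mulRight a) _ _ fun g => by simp

theorem el_mul_el (f f' : G → ℂ) : el f * el f' = el fun h => ∑ g, f g * f' (g⁻¹ * h) := by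
  conv_lhs => rw [el, Finset.sum_mul]
  simp only [smul_mul_assoc, og_mul_el]
  simp only [el, Finset.smul_sum, Finset.sum_smul, smul_smul]
  exact Finset.sum_comm

theorem comm_of_og {z : GA G} (h : ∀ g, og g * z = z * og g) (a : GA G) : a * z = z * a :=
  LinearMap.congr_fun (ga_ext (f := LinearMap.mulRight ℂ z) (f' := LinearMap.mulLeft ℂ z) h) a

theorem el_comm {f : G → ℂ} (hf : IsClassFunction G f) (a : GA G) : a * el f = el f * a :=
  comm_of_og (fun g => by rw [og_mul_el, el_mul_og]; simp only [classFun_mul_comm hf g⁻¹]) a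

theorem exists_class {z : GA G} (h : ∀ g, og g * z = z * og g) :
    ∃ f, IsClassFunction G f ∧ z = el f := by
  obtain ⟨f, rfl⟩ := exists_el z
  refine ⟨f, fun g a => ?_, rfl⟩
  have := h a⁻¹
  rw [og_mul_el, el_mul_og] at this
  simpa [mul_assoc] using congrFun (el_inj this) (g * a⁻¹)

theorem sum_tensor {M : Type*} [AddCommGroup M] [Module ℂ M] (β : GA G →ₗ[ℂ] GA G →ₗ[ℂ] M)
    (a : GA G) : ∑ g, β (a * og g) (og g⁻¹) = ∑ g, β (og g) (og g⁻¹ * a) := by
  have := ga_ext (f := ∑ g, β.flip (og g⁻¹) ∘ₗ LinearMap.mulRight ℂ (og g))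
    (f' := ∑ g, β (og g) ∘ₗ LinearMap.mulLeft ℂ (og g⁻¹)) fun h => by
      simp only [LinearMap.sum_apply, LinearMap.comp_apply, LinearMap.mulRight_apply,
        LinearMap.mulLeft_apply, LinearMap.flip_apply, ← map_mul]
      exact Fintype.sum_equiv (Equiv.mulLeft h) _ _ fun g => by simp
  simpa using LinearMap.congr_fun this a

/-- the sum of the conjugates -/
noncomputable def avg (a : GA G) : GA G := ∑ g, og g * a * og g⁻¹

theorem avg_comm (a : GA G) (h : G) : og h * avg a = avg a * og h := by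
  simp only [avg, Finset.mul_sum, Finset.sum_mul, ← mul_assoc, ← map_mul]
  simp only [mul_assoc, ← map_mul]
  exact Fintype.sum_equiv (Equiv.mulLeft h) _ _ fun g => by simp

/-- the central idempotent of a character -/
noncomputable def eps (χ : G → ℂ) : GA G := el fun g => χ 1 / Nat.card G * χ g⁻¹

theorem eps_comm {χ : G → ℂ} (hχ : IsIrrCharacter G χ) (a : GA G) : a * eps χ = eps χ * a :=
  el_comm (fun g h => by
    have := isChar_classFun (isChar_inv (isChar_of_irr hχ)) g h
    exact congrArg (fun z => χ 1 / Nat.card G * z) this) a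

theorem central_mul_eps {χ : G → ℂ} (hχ : IsIrrCharacter G χ) {z : GA G}
    (h : ∀ g, og g * z = z * og g) : z * eps χ = (hat χ z / χ 1) • eps χ := by
  obtain ⟨f, hf, rfl⟩ := exists_class h
  rw [eps, el_mul_el, hat_el, el, el, Finset.smul_sum]
  refine Finset.sum_congr rfl fun x _ => ?_
  rw [smul_smul]
  congr 1
  have h0 := isIrr_one_ne_zero hχ
  have h1 := irr_convolution hf hχ x⁻¹
  simp only [mul_inv_rev, inv_inv, classFun_mul_comm (isChar_classFun (isChar_of_irr hχ)) x⁻¹]
  simp only [mul_left_comm _ (χ 1 / Nat.card G), ← Finset.mul_sum]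
  congr 1
  field_simp
  rw [← h1, mul_comm]

theorem hat_comm {f : G → ℂ} (hf : IsClassFunction G f) (a b : GA G) :
    hat f (a * b) = hat f (b * a) := by
  obtain ⟨x, rfl⟩ := exists_el a
  obtain ⟨y, rfl⟩ := exists_el b
  simp only [el, Finset.sum_mul, Finset.mul_sum, smul_mul_assoc, mul_smul_comm, map_sum, map_smul,
    ← map_mul, hat_og, Finset.smul_sum]
  rw [Finset.sum_comm]
  refine Finset.sum_congr rfl fun g _ => Finset.sum_congr rfl fun h _ => ?_
  rw [classFun_mul_comm hf, smul_comm]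

theorem hat_avg {f : G → ℂ} (hf : IsClassFunction G f) (a : GA G) :
    hat f (avg a) = Nat.card G * hat f a := by
  simp only [avg, map_sum]
  rw [Finset.sum_congr rfl (g := fun _ => hat f a) fun g _ => by
    rw [hat_comm hf, ← mul_assoc, ← map_mul, inv_mul_cancel, map_one, one_mul]]
  simp

theorem hat_central_mul {χ : G → ℂ} (hχ : IsIrrCharacter G χ) {z : GA G}
    (h : ∀ g, og g * z = z * og g) (a : GA G) : hat χ (z * a) = hat χ z / χ 1 * hat χ a := by
  obtain ⟨f, hf, rfl⟩ := exists_class h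
  have := ga_ext (f := hat χ ∘ₗ LinearMap.mulLeft ℂ (el f)) (f' := (hat χ (el f) / χ 1) • hat χ)
    fun g => by
      have h0 := isIrr_one_ne_zero hχ
      have h1 := irr_convolution hf hχ g
      simp only [LinearMap.comp_apply, LinearMap.mulLeft_apply, LinearMap.smul_apply, hat_og, hat_el,
        smul_eq_mul]
      simp only [el, Finset.sum_mul, smul_mul_assoc, map_sum, map_smul, ← map_mul, hat_og, smul_eq_mul]
      field_simp
      rw [← h1, mul_comm]
  exact LinearMap.congr_fun this a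

open Classical in
theorem hat_eps (χ ψ : IrrCharacter G) :
    hat (ψ : G → ℂ) (eps (χ : G → ℂ)) = if χ = ψ then (ψ : G → ℂ) 1 else 0 := by
  have h := inner_irr' ψ χ
  rw [inner_eq_inv (isChar_of_irr χ.2)] at h
  rw [eps, hat_el]
  simp only [div_eq_mul_inv, mul_assoc, ← Finset.mul_sum]
  simp only [mul_comm ((χ : G → ℂ) _⁻¹), h]
  by_cases e : χ = ψ
  · simp [e]
  · simp [e, Ne.symm e]

open Classical in
theorem eps_mul_eps (χ ψ : IrrCharacter G) :
    eps (χ : G → ℂ) * eps (ψ : G → ℂ) = if χ = ψ then eps (ψ : G → ℂ) else 0 := by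
  rw [central_mul_eps ψ.2 fun g => eps_comm χ.2 _, hat_eps]
  split_ifs
  · rw [div_self (isIrr_one_ne_zero ψ.2), one_smul]
  · simp

theorem sum_eps : ∑ χ : IrrCharacter G, eps (χ : G → ℂ) = 1 := by
  simp only [eps, el]
  rw [Finset.sum_comm]
  simp only [← Finset.sum_smul, div_mul_eq_mul_div, ← Finset.sum_div, sum_degree_mul]
  rw [Finset.sum_eq_single 1]
  · rw [inv_one, regChar_one, div_self card_ne_zero, one_smul, map_one]
  · intro g _ hg
    rw [regChar_of_ne (inv_ne_one.2 hg), zero_div, zero_smul]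
  · simp

theorem trace_mulLeft (a : GA G) : LinearMap.trace ℂ _ (LinearMap.mulLeft ℂ a) = hat (regChar G) a := by
  classical
  have := ga_ext (f := LinearMap.trace ℂ _ ∘ₗ LinearMap.mul ℂ (GA G)) (f' := hat (regChar G)) fun g => by
    rw [LinearMap.comp_apply, LinearMap.trace_eq_matrix_trace ℂ (MonoidAlgebra.basis G ℂ), hat_og,
      Matrix.trace]
    simp only [Matrix.diag, LinearMap.toMatrix_apply, basis_eq, LinearMap.mul_apply', ← map_mul]
    simp only [← basis_eq, Basis.repr_self, Finsupp.single_apply, mul_eq_right]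
    by_cases h : g = 1
    · simp [h, regChar_one]
    · simp [h, regChar_of_ne h]
  exact LinearMap.congr_fun this a

theorem eps_mul_eq_zero {e : GA G} (he : e * e = e) (χ : IrrCharacter G)
    (h : hat (χ : G → ℂ) e = 0) : eps (χ : G → ℂ) * e = 0 := by
  classical
  have h1 : IsIdempotentElem (LinearMap.mulLeft ℂ (eps (χ : G → ℂ) * e)) := by
    rw [IsIdempotentElem, Module.End.mul_eq_comp, ← LinearMap.mulLeft_mul, mul_assoc, ← mul_assoc e,
      eps_comm χ.2 e, mul_assoc, he, ← mul_assoc, eps_mul_eps, if_pos rfl]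
  have h2 := LinearMap.IsIdempotentElem.eq_zero_of_trace_eq_zero h1 (by
    have : hat (regChar G) = ∑ ψ : IrrCharacter G, (ψ : G → ℂ) 1 • hat (ψ : G → ℂ) :=
      ga_ext fun g => by simp [hat_og, sum_degree_mul]
    rw [trace_mulLeft, this, LinearMap.sum_apply]
    refine Finset.sum_eq_zero fun ψ _ => ?_
    rw [LinearMap.smul_apply, hat_central_mul ψ.2 fun g => eps_comm χ.2 _, hat_eps]
    split_ifs with e
    · rw [← e, h]; simp
    · simp)
  simpa using LinearMap.congr_fun h2 1

theorem exists_inv_avg {e : GA G} (he : e * e = e) :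
    ∃ c : GA G, (∀ a, a * c = c * a) ∧ e * avg e * c = e := by
  classical
  let s := Finset.univ.filter fun χ : IrrCharacter G => hat (χ : G → ℂ) e ≠ 0
  refine ⟨∑ χ ∈ s, (hat (χ : G → ℂ) (avg e) / (χ : G → ℂ) 1)⁻¹ • eps (χ : G → ℂ), fun a => ?_, ?_⟩
  · rw [Finset.mul_sum, Finset.sum_mul]
    refine Finset.sum_congr rfl fun χ _ => ?_
    rw [mul_smul_comm, smul_mul_assoc, eps_comm χ.2]
  · conv_rhs => rw [← mul_one e, ← sum_eps, Finset.mul_sum]
    rw [mul_assoc, Finset.mul_sum, Finset.mul_sum, Finset.sum_filter]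
    refine Finset.sum_congr rfl fun χ _ => ?_
    split_ifs with h
    · rw [mul_smul_comm, central_mul_eps χ.2 (avg_comm e), smul_smul, inv_mul_cancel₀, one_smul]
      rw [hat_avg (isChar_classFun (isChar_of_irr χ.2))]
      exact div_ne_zero (mul_ne_zero card_ne_zero h) (isIrr_one_ne_zero χ.2)
    · rw [eps_comm χ.2, eps_mul_eq_zero he χ (not_not.1 h)]

variable {V : Type*} [AddCommGroup V] [Module ℂ V]

/-- an algebra identified with `e ℂG e` -/
structure Corner (e : GA G) (μ : V →ₗ[ℂ] V →ₗ[ℂ] V) (ι : V →ₗ[ℂ] GA G) : Prop where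
  idem : e * e = e
  inj : Function.Injective ι
  mul : ∀ a b, ι (μ a b) = ι a * ι b
  left : ∀ a, e * ι a = ι a
  right : ∀ a, ι a * e = ι a
  surj : ∀ g, ∃ a, ι a = e * og g * e

namespace Corner
variable {e : GA G} {μ : V →ₗ[ℂ] V →ₗ[ℂ] V} {ι : V →ₗ[ℂ] GA G} (h : Corner e μ ι)
include h

theorem assoc (a b c : V) : μ (μ a b) c = μ a (μ b c) := h.inj (by simp only [h.mul, mul_assoc])

theorem exists_proj : ∃ π : GA G →ₗ[ℂ] V, ∀ a, ι (π a) = e * a * e := by
  choose f hf using h.surj
  refine ⟨(MonoidAlgebra.basis G ℂ).constr ℂ f, fun a => ?_⟩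
  exact LinearMap.congr_fun (ga_ext (f := ι ∘ₗ (MonoidAlgebra.basis G ℂ).constr ℂ f)
    (f' := LinearMap.mulRight ℂ e ∘ₗ LinearMap.mulLeft ℂ e) fun g => by
      rw [LinearMap.comp_apply, ← basis_eq, Basis.constr_basis, hf, basis_eq]; rfl) a

theorem inner : LinearMap.ker (d1 μ) ≤ LinearMap.range (d0 μ) := by
  intro D hD
  have hD : ∀ a b, D (μ a b) = μ (D a) b + μ a (D b) := fun a b => by
    have := LinearMap.congr_fun₂ (LinearMap.mem_ker.1 hD) a b
    rw [d1_apply] at this
    rw [sub_sub] at this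
    exact sub_eq_zero.1 this
  obtain ⟨π, hπ⟩ := h.exists_proj
  obtain ⟨c, hc, hc'⟩ := exists_inv_avg h.idem
  set y := ∑ g : G, ι (D (π (og g))) * ι (π (og g⁻¹))
  have hy : e * y * e = y := by
    simp only [y, Finset.mul_sum, Finset.sum_mul, ← h.mul, h.left, h.right]
  refine ⟨π (y * c), LinearMap.ext fun v => h.inj ?_⟩
  have h1 := sum_tensor ((LinearMap.mul ℂ (GA G)).compl₁₂ (ι ∘ₗ D ∘ₗ π) (ι ∘ₗ π)) (ι v)
  have h2 : ∀ a, π (ι v * a) = μ v (π a) := fun a => h.inj (by
    rw [h.mul, hπ, hπ, ← mul_assoc, h.left, ← mul_assoc, ← mul_assoc, h.right])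
  have h3 : ∀ a, π (a * ι v) = μ (π a) v := fun a => h.inj (by
    rw [h.mul, hπ, hπ, mul_assoc, mul_assoc, h.right, mul_assoc, h.left, mul_assoc])
  simp only [LinearMap.compl₁₂_apply, LinearMap.comp_apply, LinearMap.mul_apply', h2, h3, hD, map_add,
    LinearMap.add_apply, h.mul, add_mul, Finset.sum_add_distrib, mul_assoc, ← Finset.mul_sum] at h1
  simp only [← mul_assoc, ← Finset.sum_mul] at h1
  have h4 : ∑ g : G, ι (π (og g)) * ι (π (og g⁻¹)) = e * avg e * e := by
    simp only [hπ, avg, Finset.mul_sum, Finset.sum_mul, mul_assoc]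
    simp only [← mul_assoc e e, h.idem]
  rw [h4] at h1
  have h5 : ι (π (y * c)) = y * c := by rw [hπ, mul_assoc, mul_assoc, ← hc, ← mul_assoc, ← mul_assoc, hy]
  rw [d0_apply, map_sub, h.mul, h.mul, h5, mul_assoc, ← hc, ← mul_assoc, ← mul_assoc, ← h1, add_mul,
    add_sub_cancel_right, mul_assoc, mul_assoc _ e c, hc e, ← mul_assoc _ c, hc', h.idem, h.right]

theorem finrank_center : finrank ℂ (LinearMap.ker (d0 μ)) =
    Nat.card {χ : IrrCharacter G // hat (χ : G → ℂ) e ≠ 0} := by
  classical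
  obtain ⟨π, hπ⟩ := h.exists_proj
  obtain ⟨c, hc, hc'⟩ := exists_inv_avg h.idem
  let v : {χ : IrrCharacter G // hat (χ : G → ℂ) e ≠ 0} → GA G := fun χ => eps (χ.1 : G → ℂ) * e
  have hv : LinearIndependent ℂ v := by
    rw [Fintype.linearIndependent_iff]
    intro a ha χ
    have := congrArg (hat (χ.1 : G → ℂ)) ha
    simp only [map_sum, map_smul, map_zero, v] at this
    rw [Finset.sum_eq_single χ, hat_central_mul χ.1.2 fun g => eps_comm χ.1.2 _, hat_eps, if_pos rfl,
      div_self (isIrr_one_ne_zero χ.1.2), one_mul] at this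
    · exact (mul_eq_zero.1 this).resolve_right χ.2
    · intro ψ _ hψ
      rw [hat_central_mul χ.1.2 fun g => eps_comm ψ.1.2 _, hat_eps, if_neg fun e => hψ (Subtype.ext e)]
      simp
    · simp
  rw [Nat.card_eq_fintype_card, ← finrank_span_eq_card hv,
    LinearEquiv.finrank_eq (Submodule.equivMapOfInjective ι h.inj _)]
  refine congrArg (fun p : Submodule ℂ (GA G) => finrank ℂ p) (le_antisymm ?_ ?_)
  · rintro _ ⟨a, ha, rfl⟩
    have ha : ∀ b, ι a * ι b = ι b * ι a := fun b => by
      rw [← h.mul, ← h.mul, ← sub_eq_zero, ← map_sub, ← d0_apply, LinearMap.mem_ker.1 ha]; simp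
    have h1 : e * avg (ι a) * e = ι a * (e * avg e * e) := by
      simp only [avg, Finset.mul_sum, Finset.sum_mul]
      refine Finset.sum_congr rfl fun g _ => ?_
      have h2 := ha (π (og g))
      rw [hπ] at h2
      calc e * (og g * ι a * og g⁻¹) * e = (e * og g * e * ι a) * og g⁻¹ * e := by
            simp only [mul_assoc, h.left]
        _ = _ := by rw [← h2]; simp only [mul_assoc]
    have h2 : ι a = avg (ι a) * c * e := by
      rw [mul_assoc, ← hc, ← mul_assoc, ← h.idem, ← mul_assoc, ← comm_of_og (avg_comm _) e, h1,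
        mul_assoc, mul_assoc _ e c, hc e, ← mul_assoc _ c, hc', h.idem, h.right]
    have h3 : ∀ g, og g * (avg (ι a) * c) = avg (ι a) * c * og g := fun g => by
      rw [← mul_assoc, avg_comm, mul_assoc, hc, mul_assoc]
    rw [h2, ← mul_one (avg (ι a) * c), ← sum_eps, Finset.mul_sum, Finset.sum_mul]
    refine Submodule.sum_mem _ fun χ _ => ?_
    rw [central_mul_eps χ.2 h3, smul_mul_assoc]
    refine Submodule.smul_mem _ _ ?_
    by_cases h4 : hat (χ : G → ℂ) e = 0
    · rw [eps_mul_eq_zero h.idem χ h4]; exact zero_mem _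
    · exact Submodule.subset_span ⟨⟨χ, h4⟩, rfl⟩
  · rw [Submodule.span_le]
    rintro _ ⟨χ, rfl⟩
    have h1 : ι (π (eps (χ.1 : G → ℂ))) = v χ := by rw [hπ, eps_comm χ.1.2 e, mul_assoc, h.idem]
    refine ⟨_, LinearMap.mem_ker.2 (LinearMap.ext fun b => h.inj ?_), h1⟩
    rw [d0_apply, map_sub, h.mul, h.mul, h1, mul_assoc, h.left, ← mul_assoc, eps_comm χ.1.2, mul_assoc,
      h.right]
    simp

end Corner
end Cfsg.Agent.StB
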