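import Mathlib
/-!
# Polynomial families of algebras: the dimension of the centre at separable members
-/
set_option autoImplicit false

namespace Cfsg.Agent.StB
open Module

section poly
variable {E E' E'' : Type*} [AddCommGroup E] [Module ℂ E] [AddCommGroup E'] [Module ℂ E']
  [AddCommGroup E''] [Module ℂ E'']

/-- polynomial functions with values in a vector space -/
def polyF (E : Type*) [AddCommGroup E] [Module ℂ E] : Submodule ℂ (ℂ → E) :=
  Submodule.span ℂ {g | ∃ (k : ℕ) (e : E), g = fun t => t ^ k • e}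

theorem polyF_mono (k : ℕ) (e : E) : (fun t : ℂ => t ^ k • e) ∈ polyF E :=
  Submodule.subset_span ⟨k, e, rfl⟩

theorem polyF_zero : (fun _ : ℂ => (0 : E)) ∈ polyF E := (polyF E).zero_mem

theorem polyF_add {f g : ℂ → E} (hf : f ∈ polyF E) (hg : g ∈ polyF E) :
    (fun t => f t + g t) ∈ polyF E := (polyF E).add_mem hf hg

theorem polyF_smul (c : ℂ) {f : ℂ → E} (hf : f ∈ polyF E) : (fun t => c • f t) ∈ polyF E :=
  (polyF E).smul_mem c hf

theorem polyF_const (e : E) : (fun _ : ℂ => e) ∈ polyF E := by simpa using polyF_mono 0 e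

theorem polyF_lin (e : E) : (fun t : ℂ => t • e) ∈ polyF E := by simpa using polyF_mono 1 e

theorem polyF_map (L : E →ₗ[ℂ] E') {f : ℂ → E} (hf : f ∈ polyF E) : (fun t => L (f t)) ∈ polyF E' := by
  induction hf using Submodule.span_induction with
  | mem g hg => obtain ⟨k, e, rfl⟩ := hg; simpa using polyF_mono k (L e)
  | zero => simpa using polyF_zero
  | add a b _ _ ha hb => simpa using polyF_add ha hb
  | smul c a _ ha => simpa using polyF_smul c ha

theorem polyF_bilin (B : E →ₗ[ℂ] E' →ₗ[ℂ] E'') {f : ℂ → E} {g : ℂ → E'} (hf : f ∈ polyF E)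
    (hg : g ∈ polyF E') : (fun t => B (f t) (g t)) ∈ polyF E'' := by
  induction hf using Submodule.span_induction with
  | mem f hf =>
    obtain ⟨k, e, rfl⟩ := hf
    induction hg using Submodule.span_induction with
    | mem g hg =>
      obtain ⟨l, e', rfl⟩ := hg
      simpa [smul_smul, pow_add] using polyF_mono (l + k) (B e e')
    | zero => simpa using polyF_zero
    | add a b _ _ ha hb => simpa using polyF_add ha hb
    | smul c a _ ha => simpa [smul_comm c] using polyF_smul c ha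
  | zero => simpa using polyF_zero
  | add a b _ _ ha hb => simpa using polyF_add ha hb
  | smul c a _ ha => simpa using polyF_smul c ha

theorem polyF_sum {ι : Type*} (s : Finset ι) {f : ι → ℂ → E} (h : ∀ i ∈ s, f i ∈ polyF E) :
    (fun t => ∑ i ∈ s, f i t) ∈ polyF E := by
  have := (polyF E).sum_mem h
  rwa [show ∑ i ∈ s, f i = fun t => ∑ i ∈ s, f i t from funext fun t => Finset.sum_apply _ _ _] at this

theorem polyF_list_prod {A ι : Type*} [Ring A] [Algebra ℂ A] (f : ι → ℂ → A)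
    (h : ∀ i, f i ∈ polyF A) (l : List ι) : (fun t => (l.map fun i => f i t).prod) ∈ polyF A := by
  induction l with
  | nil => simpa using polyF_const (1 : A)
  | cons i l ih => simpa using polyF_bilin (LinearMap.mul ℂ A) (h i) ih

theorem polyF_pi {ι : Type*} [Fintype ι] {f : ℂ → ι → E} (h : ∀ i, (fun t => f t i) ∈ polyF E) :
    f ∈ polyF (ι → E) := by
  classical
  have := polyF_sum Finset.univ fun i _ => polyF_map (LinearMap.single ℂ (fun _ => E) i) (h i)
  simpa [Finset.univ_sum_single] using this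

theorem polyF_exists {f : ℂ → ℂ} (hf : f ∈ polyF ℂ) : ∃ P : Polynomial ℂ, ∀ t, f t = P.eval t := by
  induction hf using Submodule.span_induction with
  | mem g hg => obtain ⟨k, e, rfl⟩ := hg; exact ⟨Polynomial.monomial k e, fun t => by simp [mul_comm]⟩
  | zero => exact ⟨0, by simp⟩
  | add a b _ _ ha hb =>
    obtain ⟨P, hP⟩ := ha
    obtain ⟨Q, hQ⟩ := hb
    exact ⟨P + Q, fun t => by simp [hP, hQ]⟩
  | smul c a _ ha =>
    obtain ⟨P, hP⟩ := ha
    exact ⟨c • P, fun t => by simp [hP]⟩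

theorem polyF_eq_zero {f : ℂ → E} (hf : f ∈ polyF E) (h : {t | f t = 0}.Infinite) (t : ℂ) :
    f t = 0 := by
  refine (Module.forall_dual_apply_eq_zero_iff ℂ _).1 fun φ => ?_
  obtain ⟨P, hP⟩ := polyF_exists (polyF_map φ hf)
  have : P = 0 := P.eq_zero_of_infinite_isRoot (h.mono fun s hs => by
    have : f s = 0 := hs
    simp [Polynomial.IsRoot, ← hP, this])
  rw [hP, this, Polynomial.eval_zero]

theorem finite_rank_lt [FiniteDimensional ℂ E] {f : ℂ → E →ₗ[ℂ] E'} (hf : f ∈ polyF (E →ₗ[ℂ] E'))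
    (t₀ : ℂ) : {t | finrank ℂ (LinearMap.range (f t)) < finrank ℂ (LinearMap.range (f t₀))}.Finite := by
  classical
  set r := finrank ℂ (LinearMap.range (f t₀))
  let e : LinearMap.range (f t₀) ≃ₗ[ℂ] (Fin r → ℂ) := (Module.finBasis ℂ _).equivFun
  obtain ⟨s, hs⟩ := (f t₀).rangeRestrict.exists_rightInverse_of_surjective (f t₀).range_rangeRestrict
  obtain ⟨l, hl⟩ := (LinearMap.range (f t₀)).subtype.exists_leftInverse_of_injective
    (Submodule.ker_subtype _)
  let L : ℂ → (Fin r → ℂ) →ₗ[ℂ] (Fin r → ℂ) := fun t =>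
    (e.toLinearMap ∘ₗ l) ∘ₗ f t ∘ₗ (s ∘ₗ e.symm.toLinearMap)
  have h0 : L t₀ = LinearMap.id := by
    refine LinearMap.ext fun x => ?_
    have h1 := LinearMap.congr_fun hl (e.symm x)
    have h2 := congrArg Subtype.val (LinearMap.congr_fun hs (e.symm x))
    simp only [L, LinearMap.comp_apply, LinearMap.id_apply, LinearEquiv.coe_coe] at h1 h2 ⊢
    rw [show f t₀ (s (e.symm x)) = _ from h2, show l (e.symm x : E') = _ from h1, LinearEquiv.apply_symm_apply]
  have h1 : (fun t => LinearMap.det (L t)) ∈ polyF ℂ := by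
    simp only [← LinearMap.det_toMatrix', Matrix.det_apply', ← Fin.prod_ofFn, List.ofFn_eq_map]
    refine polyF_sum _ fun σ _ => polyF_map (LinearMap.mul ℂ ℂ _) (polyF_list_prod
      (fun i t => LinearMap.toMatrix' (L t) (σ i) i) (fun i => ?_) _)
    simp only [LinearMap.toMatrix'_apply, L, LinearMap.comp_apply]
    exact polyF_map (LinearMap.proj (σ i) ∘ₗ e.toLinearMap ∘ₗ l ∘ₗ LinearMap.applyₗ _) hf
  obtain ⟨P, hP⟩ := polyF_exists h1
  have h2 : P ≠ 0 := fun h => by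
    have := hP t₀
    simp [h, h0] at this
  refine (P.finite_setOfPred_isRoot h2).subset fun t ht => ?_
  by_contra h
  have h3 : LinearMap.det (L t) ≠ 0 := fun h' => h ((hP t).symm.trans h')
  have h4 : LinearMap.range (L t) = ⊤ :=
    LinearMap.range_eq_top.2 ((LinearMap.equivOfDetNeZero _ h3).surjective)
  have h5 : finrank ℂ (LinearMap.range (L t)) ≤ finrank ℂ (LinearMap.range (f t)) := by
    simp only [L]
    rw [LinearMap.range_comp]
    exact (Submodule.finrank_map_le _ _).trans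
      (Submodule.finrank_mono (LinearMap.range_comp_le_range _ _))
  rw [h4, finrank_top, Module.finrank_fin_fun] at h5
  exact absurd ht (not_lt.2 h5)

end poly

variable {V : Type*} [AddCommGroup V] [Module ℂ V]

/-- the adjoint map of a bilinear product -/
noncomputable def d0 : (V →ₗ[ℂ] V →ₗ[ℂ] V) →ₗ[ℂ] V →ₗ[ℂ] V →ₗ[ℂ] V :=
  LinearMap.id - LinearMap.lflip.toLinearMap

theorem d0_apply (μ : V →ₗ[ℂ] V →ₗ[ℂ] V) (a b : V) : d0 μ a b = μ a b - μ b a := rfl

/-- the defect of being a derivation -/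
noncomputable def d1 : (V →ₗ[ℂ] V →ₗ[ℂ] V) →ₗ[ℂ] (V →ₗ[ℂ] V) →ₗ[ℂ] V →ₗ[ℂ] V →ₗ[ℂ] V :=
  LinearMap.mk₂ ℂ (fun μ D => μ.compr₂ D - μ ∘ₗ D - μ.compl₂ D)
    (fun _ _ _ => by ext; simp; abel) (fun _ _ _ => by ext; simp [smul_sub])
    (fun _ _ _ => by ext; simp; abel) (fun _ _ _ => by ext; simp [smul_sub])

theorem d1_apply (μ : V →ₗ[ℂ] V →ₗ[ℂ] V) (D : V →ₗ[ℂ] V) (a b : V) :
    d1 μ D a b = D (μ a b) - μ (D a) b - μ a (D b) := rfl

theorem finrank_center_le [FiniteDimensional ℂ V] {μ : ℂ → V →ₗ[ℂ] V →ₗ[ℂ] V}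
    (hμ : μ ∈ polyF (V →ₗ[ℂ] V →ₗ[ℂ] V))
    (ha : {t | ∀ a b c, μ t (μ t a b) c = μ t a (μ t b c)}.Infinite) (t₀ : ℂ) {t₁ : ℂ}
    (h1 : LinearMap.ker (d1 (μ t₁)) ≤ LinearMap.range (d0 (μ t₁))) :
    finrank ℂ (LinearMap.ker (d0 (μ t₁))) ≤ finrank ℂ (LinearMap.ker (d0 (μ t₀))) := by
  have p0 := polyF_map (E' := V →ₗ[ℂ] V →ₗ[ℂ] V) d0 hμ
  have p1 := polyF_map (E' := (V →ₗ[ℂ] V) →ₗ[ℂ] V →ₗ[ℂ] V →ₗ[ℂ] V) (d1 (V := V)) hμ
  have h2 := polyF_eq_zero (polyF_bilin (E'' := V →ₗ[ℂ] V →ₗ[ℂ] V →ₗ[ℂ] V)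
    (LinearMap.llcomp ℂ V (V →ₗ[ℂ] V) (V →ₗ[ℂ] V →ₗ[ℂ] V)) p1 p0) (ha.mono fun t ht => by
    have ht : ∀ a b c, μ t (μ t a b) c = μ t a (μ t b c) := ht
    ext x a b
    simp [d1_apply, d0_apply, ht])
  obtain ⟨t, ht⟩ := ((finite_rank_lt p0 t₀).union (finite_rank_lt p1 t₁)).exists_notMem
  simp only [Set.mem_union, Set.mem_ofPred_eq, not_or, not_lt] at ht
  have h3 : LinearMap.range (d0 (μ t)) ≤ LinearMap.ker (d1 (μ t)) :=
    LinearMap.range_le_ker_iff.2 (h2 t)
  have e1 := Submodule.finrank_mono h1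
  have e2 := Submodule.finrank_mono h3
  have e3 := (d1 (μ t)).finrank_range_add_finrank_ker
  have e4 := (d1 (μ t₁)).finrank_range_add_finrank_ker
  have e5 := (d0 (μ t₀)).finrank_range_add_finrank_ker
  have e6 := (d0 (μ t₁)).finrank_range_add_finrank_ker
  omega

end Cfsg.Agent.StB
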